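import Mathlib

/-! An involution on an elementary abelian 2-group normalised by a 3-group: lifting fixed points. -/
set_option autoImplicit false

namespace Cfsg.Agent.Lib.ThreeTransp

variable {G : Type*} [Group G]

/-- The commutators of the involution `t` with members of `N`. -/
def Cob (N : Subgroup G) (t : G) : Set G := {n | ∃ q ∈ N, n = t * q * t * q}

variable {N P : Subgroup G} {t : G}

theorem cob_mul (hcomm : ∀ a ∈ N, ∀ b ∈ N, a * b = b * a) (htN : ∀ a ∈ N, t * a * t ∈ N) (htt : t * t = 1) {m n : G}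
    (hm : m ∈ Cob N t) (hn : n ∈ Cob N t) : m * n ∈ Cob N t := by
  obtain ⟨q, hq, rfl⟩ := hm
  obtain ⟨r, hr, rfl⟩ := hn
  refine ⟨q * r, mul_mem hq hr, ?_⟩
  calc t * q * t * q * (t * r * t * r) = t * q * t * (q * (t * r * t)) * r := by group
    _ = t * q * t * ((t * r * t) * q) * r := by rw [hcomm q hq _ (htN r hr)]
    _ = t * q * (t * t) * r * t * (q * r) := by group
    _ = t * (q * r) * t * (q * r) := by rw [htt]; group

theorem cob_conj (hsN : ∀ s ∈ P, ∀ a ∈ N, s * a * s⁻¹ ∈ N) {z n : G} (hz : z ∈ P) (hzt : z * t = t * z)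
    (hn : n ∈ Cob N t) : z * n * z⁻¹ ∈ Cob N t := by
  obtain ⟨q, hq, rfl⟩ := hn
  refine ⟨z * q * z⁻¹, hsN z hz q hq, ?_⟩
  calc z * (t * q * t * q) * z⁻¹ = (z * t) * q * t * q * z⁻¹ := by group
    _ = t * z * q * t * q * z⁻¹ := by rw [hzt]
    _ = t * (z * q * z⁻¹) * (z * t) * q * z⁻¹ := by group
    _ = _ := by rw [hzt]; group

theorem exists_fixed [Finite G] (hcomm : ∀ a ∈ N, ∀ b ∈ N, a * b = b * a) (hsq : ∀ a ∈ N, a * a = 1)
    (htN : ∀ a ∈ N, t * a * t ∈ N) (hsN : ∀ s ∈ P, ∀ a ∈ N, s * a * s⁻¹ ∈ N) (htt : t * t = 1)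
    (htP : ∀ s ∈ P, t * s * t ∈ P) (hP : IsPGroup 3 P) {c : G} (hc : c ∈ N) (hct : t * c = c * t)
    (hcond : ∀ z ∈ P, z * t = t * z → z * c * z⁻¹ * c ∈ Cob N t) :
    ∃ c' ∈ N, (∀ s ∈ P, s * c' = c' * s) ∧ c * c' ∈ Cob N t := by
  haveI : Fact (Nat.Prime 3) := ⟨Nat.prime_three⟩
  let Good : Subgroup G → Prop := fun S => S ≤ P ∧ P ≤ Subgroup.normalizer (S : Set G) ∧ (∀ s ∈ S, t * s * t ∈ S) ∧
    ∃ c' ∈ N, t * c' = c' * t ∧ (∀ s ∈ S, s * c' = c' * s) ∧ c * c' ∈ Cob N t
  have hbot : Good ⊥ := by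
    refine ⟨bot_le, ?_, ?_, c, hc, hct, ?_, ⟨1, one_mem _, by rw [hsq c hc, mul_one, mul_one, htt]⟩⟩
    · intro x _
      rw [Subgroup.mem_normalizer_iff]
      intro h
      simp only [Subgroup.mem_bot]
      exact conj_eq_one_iff.symm
    · intro s hs; rw [Subgroup.mem_bot] at hs; subst hs; simp [htt]
    · intro s hs; rw [Subgroup.mem_bot] at hs; subst hs; simp
  obtain ⟨S, hS, hmax⟩ := Set.Finite.exists_maximal (Set.toFinite {S | Good S}) ⟨⊥, hbot⟩
  obtain ⟨hSP, hSn, hSt, c', hc', hc't, hSc, hcc'⟩ := hS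
  by_cases hPS : P ≤ S
  · exact ⟨c', hc', fun s hs => hSc s (hPS hs), hcc'⟩
  exfalso
  -- a member of `P` outside `S`, central modulo `S`, of order three modulo `S`
  haveI : (S.subgroupOf P).Normal := (Subgroup.normal_subgroupOf_iff_le_normalizer hSP).mpr hSn
  haveI : Nontrivial (P ⧸ S.subgroupOf P) := QuotientGroup.nontrivial_iff.mpr fun h => hPS (Subgroup.subgroupOf_eq_top.mp h)
  have hQ : IsPGroup 3 (P ⧸ S.subgroupOf P) := hP.to_quotient _
  haveI := hQ.center_nontrivial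
  obtain ⟨q₀, hq₀⟩ := exists_ne (1 : Subgroup.center (P ⧸ S.subgroupOf P))
  obtain ⟨k, hk⟩ := hQ (q₀ : P ⧸ S.subgroupOf P)
  obtain ⟨s₀, hs₀⟩ : ∃ s : P, (QuotientGroup.mk s : P ⧸ S.subgroupOf P) ≠ 1 ∧
      (QuotientGroup.mk s : P ⧸ S.subgroupOf P) ^ 3 = 1 ∧
      (QuotientGroup.mk s : P ⧸ S.subgroupOf P) ∈ Subgroup.center (P ⧸ S.subgroupOf P) := by
    have hne : (q₀ : P ⧸ S.subgroupOf P) ≠ 1 := fun h => hq₀ (Subtype.ext h)
    induction k with
    | zero => simp at hk; exact absurd hk hq₀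
    | succ k ih =>
      by_cases h : (q₀ : P ⧸ S.subgroupOf P) ^ 3 ^ k = 1
      · exact ih h
      · obtain ⟨s, hs⟩ := QuotientGroup.mk_surjective ((q₀ : P ⧸ S.subgroupOf P) ^ 3 ^ k)
        exact ⟨s, hs ▸ h, by rw [hs, ← pow_mul, ← pow_succ, hk], hs ▸ pow_mem q₀.2 _⟩
  obtain ⟨hne, hcube, hcen⟩ := hs₀
  have hcen' : ∀ p ∈ P, ∀ s : G, ∀ hs : s ∈ P, (QuotientGroup.mk (⟨s, hs⟩ : P) : P ⧸ S.subgroupOf P) ∈
      Subgroup.center (P ⧸ S.subgroupOf P) → p * s * p⁻¹ * s⁻¹ ∈ S := by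
    intro p hp s hs h
    have h' := Subgroup.mem_center_iff.mp h (QuotientGroup.mk ⟨p, hp⟩)
    have h'' : (QuotientGroup.mk (⟨p, hp⟩ * ⟨s, hs⟩ * (⟨p, hp⟩ : P)⁻¹ * (⟨s, hs⟩ : P)⁻¹) : P ⧸ S.subgroupOf P) = 1 := by
      simp only [QuotientGroup.mk_mul, QuotientGroup.mk_inv]
      rw [h']; group
    exact Subgroup.mem_subgroupOf.mp ((QuotientGroup.eq_one_iff _).mp h'')
  -- replace it by one that `t` fixes or inverts
  obtain ⟨s, hsP, hsS, hs3, hscen, hst⟩ : ∃ s ∈ P, s ∉ S ∧ s ^ 3 ∈ S ∧ (∀ p ∈ P, p * s * p⁻¹ * s⁻¹ ∈ S) ∧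
      (t * s * t = s ∨ t * s * t = s⁻¹) := by
    obtain ⟨s, hs⟩ := s₀
    have hsS : s ∉ S := fun h => hne ((QuotientGroup.eq_one_iff _).mpr (Subgroup.mem_subgroupOf.mpr h))
    have hs3 : s ^ 3 ∈ S := by
      have : (QuotientGroup.mk ((⟨s, hs⟩ : P) ^ 3) : P ⧸ S.subgroupOf P) = 1 := by rw [QuotientGroup.mk_pow, hcube]
      exact Subgroup.mem_subgroupOf.mp ((QuotientGroup.eq_one_iff _).mp this)
    have hsc : ∀ p ∈ P, p * s * p⁻¹ * s⁻¹ ∈ S := fun p hp => hcen' p hp s hs hcen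
    have htsub : ∀ p ∈ P, p ∈ S → t * p * t ∈ S := fun p _ h => hSt p h
    set u := t * s * t with hu
    have huP : u ∈ P := htP s hs
    have hti : ∀ a b : G, t * (a * b) * t = (t * a * t) * (t * b * t) := fun a b => by
      calc t * (a * b) * t = t * a * (1 : G) * b * t := by group
        _ = _ := by rw [← htt]; group
    have hinv : ∀ a : G, t * a⁻¹ * t = (t * a * t)⁻¹ := fun a => by
      rw [mul_inv_rev, mul_inv_rev, inv_eq_of_mul_eq_one_right htt, mul_assoc]
    have hut : t * u * t = s := by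
      rw [hu, show t * (t * s * t) * t = (t * t) * s * (t * t) by group, htt, one_mul, mul_one]
    by_cases hfix : s⁻¹ * u ∈ S
    · -- fixed modulo `S`
      set a := s⁻¹ * u with ha
      have hat : t * a * t = a⁻¹ := by
        rw [ha, hti, hinv, hut]
        show u⁻¹ * s = (s⁻¹ * u)⁻¹
        group
      obtain ⟨m, hm⟩ := (show ∃ m, (a ^ m) * (a ^ m) = a by
        obtain ⟨j, hj⟩ := hP ⟨a, hSP hfix⟩
        have hj' : a ^ 3 ^ j = 1 := congrArg Subtype.val hj
        obtain ⟨r, hr⟩ : Odd (3 ^ j) := Odd.pow (by decide)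
        exact ⟨r + 1, by rw [← pow_add, show r + 1 + (r + 1) = 3 ^ j + 1 by omega, pow_succ, hj', one_mul]⟩)
      have hbt : t * a ^ m * t = (a ^ m)⁻¹ := by
        clear hm
        induction m with
        | zero => simp [htt]
        | succ m ih => rw [pow_succ, hti, ih, hat, ← mul_inv_rev, ← pow_succ', pow_succ]
      have hbS : a ^ m ∈ S := pow_mem hfix m
      refine ⟨s * a ^ m, mul_mem hs (hSP hbS), fun h => hsS ((Subgroup.mul_mem_cancel_right S hbS).mp h), ?_, ?_,
        Or.inl ?_⟩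
      · have hN : ∀ x ∈ S, s * x * s⁻¹ ∈ S := fun x hx => (Subgroup.mem_normalizer_iff.mp (hSn hs) x).mp hx
        have e : (s * a ^ m) ^ 3 = (s * a ^ m * s⁻¹) * (s * (s * a ^ m * s⁻¹) * s⁻¹) *
            (s * (s * (s * a ^ m * s⁻¹) * s⁻¹) * s⁻¹) * s ^ 3 := by
          simp only [pow_succ, pow_zero, one_mul]; group
        rw [e]
        exact mul_mem (mul_mem (mul_mem (hN _ hbS) (hN _ (hN _ hbS))) (hN _ (hN _ (hN _ hbS)))) hs3
      · intro p hp
        have h1 : s * (p * a ^ m * p⁻¹ * (a ^ m)⁻¹) * s⁻¹ ∈ S :=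
          (Subgroup.mem_normalizer_iff.mp (hSn hs) _).mp
            (mul_mem ((Subgroup.mem_normalizer_iff.mp (hSn hp) _).mp hbS) (inv_mem hbS))
        have := mul_mem (hsc p hp) h1
        rwa [show p * s * p⁻¹ * s⁻¹ * (s * (p * a ^ m * p⁻¹ * (a ^ m)⁻¹) * s⁻¹) =
          p * (s * a ^ m) * p⁻¹ * (s * a ^ m)⁻¹ by group] at this
      · rw [hti, hbt, ← hu, show u = s * (a ^ m * a ^ m) by rw [hm, ha]; group]
        group
    · -- inverted
      refine ⟨s⁻¹ * u, mul_mem (inv_mem hs) huP, hfix, ?_, ?_, Or.inr ?_⟩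
      · have h1 : (QuotientGroup.mk ((⟨s, hs⟩ : P)⁻¹ * ⟨u, huP⟩) : P ⧸ S.subgroupOf P) ^ 3 = 1 := by
          have hc' : Commute ((QuotientGroup.mk (⟨s, hs⟩ : P) : P ⧸ S.subgroupOf P)⁻¹)
              (QuotientGroup.mk ⟨u, huP⟩) :=
            (Subgroup.mem_center_iff.mp (inv_mem hcen) (QuotientGroup.mk ⟨u, huP⟩)).symm
          have hu3 : (QuotientGroup.mk (⟨u, huP⟩ : P) : P ⧸ S.subgroupOf P) ^ 3 = 1 := by
            rw [← QuotientGroup.mk_pow, QuotientGroup.eq_one_iff, Subgroup.mem_subgroupOf, SubmonoidClass.coe_pow]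
            have h := hSt _ hs3
            rw [show t * s ^ 3 * t = t * (s * s * s) * t by simp [pow_succ], hti, hti] at h
            simpa [pow_succ, hu] using h
          rw [QuotientGroup.mk_mul, QuotientGroup.mk_inv, hc'.mul_pow, inv_pow, hcube, hu3, inv_one, one_mul]
        rw [← QuotientGroup.mk_pow, QuotientGroup.eq_one_iff, Subgroup.mem_subgroupOf] at h1
        exact h1
      · intro p hp
        refine hcen' p hp _ (mul_mem (inv_mem hs) huP) ?_
        rw [show (⟨s⁻¹ * u, mul_mem (inv_mem hs) huP⟩ : P) = (⟨s, hs⟩ : P)⁻¹ * ⟨u, huP⟩ from rfl,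
          QuotientGroup.mk_mul, QuotientGroup.mk_inv]
        refine mul_mem (inv_mem hcen) ?_
        rw [Subgroup.mem_center_iff]
        intro g
        induction g using QuotientGroup.induction_on with
        | _ g =>
          rw [← QuotientGroup.mk_mul, ← QuotientGroup.mk_mul, eq_comm, QuotientGroup.eq, Subgroup.mem_subgroupOf]
          have hq : t * (g : G) * t ∈ P := htP _ g.2
          have h := hsc _ hq
          have h' := hSt _ h
          rw [hti, hti, hti, hinv, hinv,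
            show t * (t * (g : G) * t) * t = (t * t) * g * (t * t) by group, htt, one_mul, mul_one, ← hu] at h'
          have h2 : ((g : G)⁻¹ * u⁻¹) * ((g : G) * u * (g : G)⁻¹ * u⁻¹) * (u * g) ∈ S := by
            have hmem : (g : G)⁻¹ * u⁻¹ ∈ Subgroup.normalizer (S : Set G) := hSn (mul_mem (inv_mem g.2) (inv_mem huP))
            have := (Subgroup.mem_normalizer_iff.mp hmem _).mp h'
            simpa [mul_assoc] using this
          simpa [mul_assoc] using h2
      · rw [hti, hinv, hut]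
        show u⁻¹ * s = (s⁻¹ * u)⁻¹
        group
  have hsn : ∀ x ∈ S, s * x * s⁻¹ ∈ S := fun x hx => (Subgroup.mem_normalizer_iff.mp (hSn hsP) x).mp hx
  have hsn' : ∀ x ∈ S, s⁻¹ * x * s ∈ S := fun x hx => by
    simpa using (Subgroup.mem_normalizer_iff.mp (hSn (inv_mem hsP)) x).mp hx
  set c₁ := s * c' * s⁻¹ with hc₁
  set c₂ := s * c₁ * s⁻¹ with hc₂
  have hc₁N : c₁ ∈ N := hsN s hsP _ hc'
  have hc₂N : c₂ ∈ N := hsN s hsP _ hc₁N
  have hc₃ : s * c₂ * s⁻¹ = c' := by
    have h := hSc _ hs3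
    calc s * c₂ * s⁻¹ = s ^ 3 * c' * (s ^ 3)⁻¹ := by rw [hc₂, hc₁]; simp only [pow_succ, pow_zero, one_mul]; group
      _ = c' := by rw [h, mul_inv_cancel_right]
  have hSc₁ : ∀ x ∈ S, x * c₁ = c₁ * x := by
    intro x hx
    calc x * c₁ = s * ((s⁻¹ * x * s) * c') * s⁻¹ := by rw [hc₁]; group
      _ = s * (c' * (s⁻¹ * x * s)) * s⁻¹ := by rw [hSc _ (hsn' x hx)]
      _ = _ := by rw [hc₁]; group
  have hSc₂ : ∀ x ∈ S, x * c₂ = c₂ * x := by
    intro x hx
    calc x * c₂ = s * ((s⁻¹ * x * s) * c₁) * s⁻¹ := by rw [hc₂]; group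
      _ = s * (c₁ * (s⁻¹ * x * s)) * s⁻¹ := by rw [hSc₁ _ (hsn' x hx)]
      _ = _ := by rw [hc₂]; group
  set S' := S ⊔ Subgroup.zpowers s with hS'
  have hS'good : Good S' := by
    refine ⟨sup_le hSP (Subgroup.zpowers_le.mpr hsP), ?_, ?_, c' * (c₁ * c₂), mul_mem hc' (mul_mem hc₁N hc₂N), ?_, ?_, ?_⟩
    · intro p hp
      rw [Subgroup.mem_normalizer_iff]
      have hmap : ∀ q ∈ P, S'.map (MulAut.conj q).toMonoidHom ≤ S' := by
        intro q hq
        rw [hS', Subgroup.map_sup, MonoidHom.map_zpowers]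
        refine sup_le ?_ (Subgroup.zpowers_le.mpr ?_)
        · rintro _ ⟨x, hx, rfl⟩
          exact le_sup_left (a := S) ((Subgroup.mem_normalizer_iff.mp (hSn hq) x).mp hx)
        · show q * s * q⁻¹ ∈ S ⊔ Subgroup.zpowers s
          rw [show q * s * q⁻¹ = q * s * q⁻¹ * s⁻¹ * s by group]
          exact mul_mem (le_sup_left (a := S) (hscen q hq)) (le_sup_right (a := S) (Subgroup.mem_zpowers s))
      intro h
      refine ⟨fun hh => hmap p hp ⟨h, hh, rfl⟩, fun hh => ?_⟩
      have := hmap p⁻¹ (inv_mem hp) ⟨_, hh, rfl⟩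
      simpa [mul_assoc] using this
    · intro x hx
      have hle : S'.map (MulAut.conj t).toMonoidHom ≤ S' := by
        rw [hS', Subgroup.map_sup, MonoidHom.map_zpowers]
        refine sup_le ?_ (Subgroup.zpowers_le.mpr ?_)
        · rintro _ ⟨y, hy, rfl⟩
          refine le_sup_left (a := S) ?_
          show t * y * t⁻¹ ∈ S
          rw [inv_eq_of_mul_eq_one_right htt]; exact hSt y hy
        · show t * s * t⁻¹ ∈ S ⊔ Subgroup.zpowers s
          rw [inv_eq_of_mul_eq_one_right htt]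
          rcases hst with h | h <;> rw [h]
          · exact le_sup_right (a := S) (Subgroup.mem_zpowers s)
          · exact le_sup_right (a := S) (inv_mem (Subgroup.mem_zpowers s))
      have := hle ⟨x, hx, rfl⟩
      simpa [inv_eq_of_mul_eq_one_right htt] using this
    · have hti : ∀ a b : G, t * (a * b) * t = (t * a * t) * (t * b * t) := fun a b => by
        calc t * (a * b) * t = t * a * (1 : G) * b * t := by group
          _ = _ := by rw [← htt]; group
      have hinv : ∀ a : G, t * a⁻¹ * t = (t * a * t)⁻¹ := fun a => by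
        rw [mul_inv_rev, mul_inv_rev, inv_eq_of_mul_eq_one_right htt, mul_assoc]
      have h0 : t * c' * t = c' := by rw [hc't, mul_assoc, htt, mul_one]
      have key : t * (c' * (c₁ * c₂)) * t = c' * (c₁ * c₂) := by
        rcases hst with h | h
        · rw [hti, hti, h0, hc₂, hc₁]
          simp only [hti, hinv, h, h0]
        · rw [hti, hti, h0]
          have e1 : t * c₁ * t = c₂ := by
            rw [hc₁, hti, hti, hinv, h, h0, inv_inv]
            nth_rewrite 1 [← hc₃]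
            group
          have e2 : t * c₂ * t = c₁ := by
            rw [← e1, show t * (t * c₁ * t) * t = (t * t) * c₁ * (t * t) by group, htt, one_mul, mul_one]
          rw [e1, e2, hcomm c₂ hc₂N c₁ hc₁N]
      calc t * (c' * (c₁ * c₂)) = t * (c' * (c₁ * c₂)) * (t * t) := by rw [htt, mul_one]
        _ = (t * (c' * (c₁ * c₂)) * t) * t := by group
        _ = _ := by rw [key]
    · intro x hx
      have hle : S' ≤ Subgroup.centralizer {c' * (c₁ * c₂)} := by
        refine sup_le ?_ ?_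
        · intro y hy
          rw [Subgroup.mem_centralizer_singleton_iff]
          exact ((show Commute y c' from hSc y hy).mul_right ((show Commute y c₁ from hSc₁ y hy).mul_right (hSc₂ y hy))).eq
        · rw [Subgroup.zpowers_le, Subgroup.mem_centralizer_singleton_iff, ← mul_inv_eq_iff_eq_mul]
          calc s * (c' * (c₁ * c₂)) * s⁻¹ = c₁ * c₂ * (s * c₂ * s⁻¹) := by rw [hc₂, hc₁]; group
            _ = c' * (c₁ * c₂) := by rw [hc₃, hcomm _ (mul_mem hc₁N hc₂N) c' hc']
      exact Subgroup.mem_centralizer_singleton_iff.mp (hle hx)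
    · rw [show c * (c' * (c₁ * c₂)) = c * c' * (c₁ * c₂) by group]
      refine cob_mul hcomm htN htt hcc' ?_
      rcases hst with h | h
      · have hst' : s * t = t * s := by
          calc s * t = t * s * t * t := by rw [h]
            _ = t * s := by rw [mul_assoc, htt, mul_one]
        have hz : ∀ z ∈ P, z * t = t * z → z * c' * z⁻¹ * c' ∈ Cob N t := by
          intro z hz hzt
          have h1 := cob_mul hcomm htN htt (hcond z hz hzt) (cob_mul hcomm htN htt (cob_conj hsN hz hzt hcc') hcc')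
          have e : z * c * z⁻¹ * c * (z * (c * c') * z⁻¹ * (c * c')) = z * c' * z⁻¹ * c' := by
            have hzc := hsN z hz c hc
            have hzc' := hsN z hz c' hc'
            calc z * c * z⁻¹ * c * (z * (c * c') * z⁻¹ * (c * c'))
                = z * c * z⁻¹ * (c * ((z * c * z⁻¹) * (z * c' * z⁻¹))) * (c * c') := by group
              _ = z * c * z⁻¹ * (((z * c * z⁻¹) * (z * c' * z⁻¹)) * c) * (c * c') := by
                  rw [hcomm c hc _ (mul_mem hzc hzc')]
              _ = (z * (c * c) * z⁻¹) * (z * c' * z⁻¹) * (c * c) * c' := by group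
              _ = _ := by rw [hsq c hc]; group
          rwa [e] at h1
        have h1 := hz s hsP hst'
        have h2 := hz (s * s) (mul_mem hsP hsP) (by rw [mul_assoc, hst', ← mul_assoc, hst', mul_assoc])
        have e2 : s * s * c' * (s * s)⁻¹ = c₂ := by rw [hc₂, hc₁]; group
        have := cob_mul hcomm htN htt h1 h2
        rw [e2, ← hc₁, show c₁ * c' * (c₂ * c') = c₁ * (c' * (c₂ * c')) by group, hcomm c₂ hc₂N c' hc',
          ← mul_assoc c' c', hsq c' hc', one_mul] at this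
        exact this
      · refine ⟨c₂, hc₂N, ?_⟩
        congr 1
        have hinv : ∀ a : G, t * a⁻¹ * t = (t * a * t)⁻¹ := fun a => by
          rw [mul_inv_rev, mul_inv_rev, inv_eq_of_mul_eq_one_right htt, mul_assoc]
        have hti : ∀ a b : G, t * (a * b) * t = (t * a * t) * (t * b * t) := fun a b => by
          calc t * (a * b) * t = t * a * (1 : G) * b * t := by group
            _ = _ := by rw [← htt]; group
        have h0 : t * c' * t = c' := by rw [hc't, mul_assoc, htt, mul_one]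
        have e1 : t * c₁ * t = c₂ := by
          rw [hc₁, hti, hti, hinv, h, h0, inv_inv]
          nth_rewrite 1 [← hc₃]
          group
        rw [← e1]
        rw [show t * (t * c₁ * t) * t = (t * t) * c₁ * (t * t) by group, htt, one_mul, mul_one]
  have hlt : S ≤ S' := le_sup_left
  exact hsS (hmax hS'good hlt (le_sup_right (a := S) (Subgroup.mem_zpowers s)))

end Cfsg.Agent.Lib.ThreeTransp
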