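import Cfsg.Agent.Lib.ThreeTransp.Radical
import Cfsg.Agent.Lib.ThreeTransp.FixSylow

/-! Classes of 3-transpositions in which commuting members have the same commuting set. -/
set_option autoImplicit false

namespace Cfsg.Agent.Lib.ThreeTransp

open Cfsg

universe u

variable {G : Type u} [Group G] {D : Set G}

theorem sq_eq_one_of_commute_generators {N : Subgroup G} (hcomm : ∀ a ∈ N, ∀ b ∈ N, a * b = b * a) {S : Set G}
    (hS : N = Subgroup.closure S) (h : ∀ x ∈ S, x * x = 1) : ∀ x ∈ N, x * x = 1 := by
  intro x hx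
  rw [hS] at hx hcomm
  induction hx using Subgroup.closure_induction with
  | mem y hy => exact h y hy
  | one => simp
  | mul y z hy' hz' hy hz =>
    calc y * z * (y * z) = y * (z * y) * z := by group
      _ = y * (y * z) * z := by rw [hcomm z hz' y hy']
      _ = (y * y) * (z * z) := by group
      _ = 1 := by rw [hy, hz, one_mul]
  | inv y _ hy => rw [← mul_inv_rev, hy, inv_one]

/-- Conjugation inside a normal 2-subgroup between members of one coset. -/
theorem exists_conj_in [Finite G] (hT : IsThreeTranspositionSet D) (hc : ∀ g : G, ∀ x ∈ D, g * x * g⁻¹ ∈ D)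
    {M : Subgroup G} (hM : M.Normal) {d e v : G} (hd : d ∈ D) (hv : v ∈ D) (he : e ∈ D) (hde : ¬ Commute d e)
    (hdv : ∀ x ∈ D, Commute d x ↔ Commute v x) (hmem : d * v ∈ M) : ∃ g ∈ M, g * d * g⁻¹ = v := by
  by_cases hne : d = v
  · exact ⟨1, one_mem _, by simp [hne]⟩
  have hve : ¬ Commute e v := fun h => hde ((hdv e he).mpr h.symm)
  have hcdv : Commute d v := (hdv v hv).mpr (Commute.refl v)
  obtain ⟨φ, -, ha, hb, hc'⟩ := SymFour.exists_hom d e v (mul_self (hT.1 d hd)) (mul_self (hT.1 e he))
    (mul_self (hT.1 v hv)) (braid_of_not_commute hT hd he hde) (braid_of_not_commute hT he hv hve) hcdv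
    (fun h => hne (by rw [eq_inv_of_mul_eq_one_left h, inv_eq (hT.1 v hv)]))
  refine ⟨e * (d * v) * e⁻¹, hM.conj_mem _ hmem e, ?_⟩
  simp only [← ha, ← hb, ← hc', ← map_mul, ← map_inv]
  exact congrArg φ (by decide +kernel)

theorem exists_invariant_sylow : ∀ (n : ℕ) {G : Type u} [Group G] [Finite G] {D : Set G},
    IsThreeTranspositionSet D → (∀ g : G, ∀ x ∈ D, g * x * g⁻¹ ∈ D) → Subgroup.closure D = ⊤ →
    (∀ a ∈ D, ∀ b ∈ D, Commute a b → ∀ e ∈ D, Commute a e ↔ Commute b e) → ∀ {d : G}, d ∈ D → Nat.card G ≤ n →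
    ∃ P : Sylow 3 G, d ∈ Subgroup.normalizer (P : Set G) ∧
      Subgroup.zpowers d ⊔ (P : Subgroup G) ⊔ pCore 2 G = ⊤ := by
  intro n
  induction n with
  | zero =>
    intro G _ _ D _ _ _ _ d _ hn
    have := Nat.card_pos (α := G)
    omega
  | succ n ih =>
    intro G _ _ D hT hc hgen hsame d hd hn
    haveI : Fact (Nat.Prime 3) := ⟨Nat.prime_three⟩
    haveI : Fact (Nat.Prime 2) := ⟨Nat.prime_two⟩
    haveI hO : (pCore 2 G).Normal := pCore_normal 2 G
    haveI hO3 : (pCore 3 G).Normal := pCore_normal 3 G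
    have hdd := mul_self (hT.1 d hd)
    by_cases h2 : pCore 2 G = ⊥
    · -- width one
      have hw : ∀ a ∈ D, ∀ b ∈ D, Commute a b → a = b := by
        intro a ha b hb hab
        have := same_mul_mem_pCore hT hc ha hb (hsame a ha b hb hab)
        rw [h2, Subgroup.mem_bot] at this
        rw [eq_inv_of_mul_eq_one_left this, inv_eq (hT.1 b hb)]
      have htop := sup_pCore_eq_top (Sys.of_width_one hT hc hw) hc hgen hd
      obtain ⟨P, hP⟩ := (Components.pCore_isPGroup (G := G) 3).exists_le_sylow
      have hPeq : (P : Subgroup G) = pCore 3 G := by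
        refine le_antisymm (fun x hx => ?_) hP
        have hx' : x ∈ ((Subgroup.zpowers d ⊔ pCore 3 G : Subgroup G) : Set G) := by rw [htop]; trivial
        rw [Subgroup.mul_normal] at hx'
        obtain ⟨z, hz, q, hq, rfl⟩ := Set.mem_mul.mp hx'
        have hzP : z ∈ (P : Subgroup G) := (Subgroup.mul_mem_cancel_right _ (hP hq)).mp hx
        obtain ⟨k, rfl⟩ := Subgroup.mem_zpowers_iff.mp hz
        obtain ⟨j, hj⟩ := P.isPGroup' ⟨_, hzP⟩
        have h1 : orderOf (d ^ k) ∣ 3 ^ j := orderOf_dvd_of_pow_eq_one (congrArg Subtype.val hj)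
        have h2 : orderOf (d ^ k) ∣ 2 := orderOf_dvd_of_pow_eq_one (by
          rw [← zpow_natCast, ← zpow_mul, mul_comm, zpow_mul, zpow_natCast, pow_two, hdd, one_zpow])
        have h := Nat.dvd_gcd h2 h1
        rw [(Nat.Coprime.pow_right j (by norm_num : Nat.Coprime 2 3)).gcd_eq_one, Nat.dvd_one,
          orderOf_eq_one_iff] at h
        rw [h, one_mul]; exact hq
      refine ⟨P, ?_, ?_⟩
      · change d ∈ Subgroup.normalizer ((P : Subgroup G) : Set G)
        rw [hPeq, Subgroup.normalizer_eq_top]; trivial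
      · rw [hPeq, htop, top_sup_eq]
    -- a non-trivial elementary abelian normal 2-subgroup
    have hO2 := Components.pCore_isPGroup (G := G) 2
    haveI : Nontrivial (pCore 2 G) := (Subgroup.nontrivial_iff_ne_bot _).mpr h2
    haveI := hO2.center_nontrivial
    set A := (Subgroup.center (pCore 2 G)).map (pCore 2 G).subtype with hA
    have hAcomm : ∀ a ∈ A, ∀ b ∈ A, a * b = b * a := by
      rintro _ ⟨a, ha, rfl⟩ _ ⟨b, -, rfl⟩
      exact congrArg Subtype.val (Subgroup.mem_center_iff.mp ha b).symm
    haveI hAn : A.Normal := by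
      rw [hA]; exact ConjAct.normal_of_characteristic_of_normal
    let M : Subgroup G :=
      { carrier := {x | x ∈ A ∧ x * x = 1}
        one_mem' := ⟨one_mem _, one_mul 1⟩
        mul_mem' := by
          rintro a b ⟨ha, ha'⟩ ⟨hb, hb'⟩
          refine ⟨mul_mem ha hb, ?_⟩
          calc a * b * (a * b) = a * (b * a) * b := by group
            _ = a * (a * b) * b := by rw [hAcomm b hb a ha]
            _ = (a * a) * (b * b) := by group
            _ = 1 := by rw [ha', hb', one_mul]
        inv_mem' := by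
          rintro a ⟨ha, ha'⟩
          exact ⟨inv_mem ha, by rw [← mul_inv_rev, ha', inv_one]⟩ }
    have hM : ∀ x, x ∈ M ↔ x ∈ A ∧ x * x = 1 := fun _ => Iff.rfl
    haveI hMn : M.Normal := by
      refine ⟨fun x hx g => (hM _).mpr ⟨hAn.conj_mem x hx.1 g, ?_⟩⟩
      rw [show g * x * g⁻¹ * (g * x * g⁻¹) = g * (x * x) * g⁻¹ by group, hx.2, mul_one, mul_inv_cancel]
    have hMle : M ≤ pCore 2 G := fun x hx => by
      obtain ⟨y, -, rfl⟩ := hx.1
      exact y.2
    have hMne : M ≠ ⊥ := by
      obtain ⟨a, ha⟩ := exists_ne (1 : Subgroup.center (pCore 2 G))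
      obtain ⟨k, hk⟩ := hO2.to_subgroup (Subgroup.center (pCore 2 G)) a
      intro hb
      induction k with
      | zero => simp at hk; exact ha hk
      | succ k ihk =>
        by_cases h : a ^ 2 ^ k = 1
        · exact ihk h
        · have hmem : (((a ^ 2 ^ k : Subgroup.center (pCore 2 G)) : pCore 2 G) : G) ∈ M := by
            refine (hM _).mpr ⟨⟨((a ^ 2 ^ k : Subgroup.center (pCore 2 G)) : pCore 2 G), SetLike.coe_mem _, rfl⟩, ?_⟩
            rw [← Subgroup.coe_mul, ← Subgroup.coe_mul, ← pow_add, ← two_mul, ← pow_succ', hk]; rfl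
          rw [hb, Subgroup.mem_bot] at hmem
          exact h (Subtype.ext (Subtype.ext hmem))
    have hM2 : IsPGroup 2 M := hO2.to_le hMle
    -- the quotient
    let π := QuotientGroup.mk' M
    have hπs : Function.Surjective π := QuotientGroup.mk'_surjective M
    have hπ1 : ∀ x, π x = 1 ↔ x ∈ M := fun x => QuotientGroup.eq_one_iff x
    have hne1 : ∀ x ∈ D, x ∉ pCore 2 G ∨ ∀ y ∈ D, Commute x y := by
      intro x hx
      by_cases hmem : x ∈ pCore 2 G
      · refine Or.inr fun y hy => ?_
        have hxy : x * (y * x * y⁻¹) ∈ pCore 2 G := mul_mem hmem (hO.conj_mem x hmem y)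
        obtain ⟨k, hk⟩ := hO2 ⟨_, hxy⟩
        by_contra hne
        have hcm := commute_of_two_pow hT hx (hc y x hx) (congrArg Subtype.val hk)
        have hb := braid_of_not_commute hT hx hy hne
        rw [inv_eq (hT.1 y hy), ← hb] at hcm
        apply hne
        have := (commute_conj_iff x x y).mp
        rw [inv_eq (hT.1 x hx), mul_self (hT.1 x hx), one_mul] at this
        exact this hcm
      · exact Or.inl hmem
    by_cases hcen : ∀ y ∈ D, Commute d y
    · -- then `G` is a 2-group
      have hall : ∀ a ∈ D, ∀ b ∈ D, Commute a b := by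
        intro a ha b hb
        exact (hsame d hd a ha (hcen a ha) b hb).mp (hcen b hb)
      have hG2 : IsPGroup 2 (⊤ : Subgroup G) := by
        have h1 : ∀ a ∈ Subgroup.closure D, ∀ b ∈ Subgroup.closure D, a * b = b * a := by
          have hle : Subgroup.closure D ≤ Subgroup.centralizer D := by
            rw [Subgroup.closure_le]
            intro a ha
            rw [SetLike.mem_coe, Subgroup.mem_centralizer_iff]
            exact fun b hb => (hall b hb a ha).eq
          intro a ha b hb
          have hle2 : Subgroup.closure D ≤ Subgroup.centralizer {b} := by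
            rw [Subgroup.closure_le]
            intro y hy
            rw [SetLike.mem_coe, Subgroup.mem_centralizer_singleton_iff]
            exact Subgroup.mem_centralizer_iff.mp (hle hb) y hy
          exact Subgroup.mem_centralizer_singleton_iff.mp (hle2 ha)
        rintro ⟨x, -⟩
        refine ⟨1, Subtype.ext ?_⟩
        show x ^ 2 ^ 1 = 1
        rw [pow_one, pow_two]
        exact sq_eq_one_of_commute_generators h1 rfl (fun y hy => mul_self (hT.1 y hy)) x
          (hgen ▸ Subgroup.mem_top x)
      obtain ⟨P⟩ : Nonempty (Sylow 3 G) := inferInstance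
      have hP : (P : Subgroup G) = ⊥ := by
        rw [Subgroup.eq_bot_iff_forall]
        intro x hx
        obtain ⟨i, hi⟩ := P.isPGroup' ⟨x, hx⟩
        obtain ⟨j, hj⟩ := hG2 ⟨x, trivial⟩
        have h := Nat.dvd_gcd (orderOf_dvd_of_pow_eq_one (congrArg Subtype.val hi) : orderOf x ∣ 3 ^ i)
          (orderOf_dvd_of_pow_eq_one (congrArg Subtype.val hj) : orderOf x ∣ 2 ^ j)
        rw [(Nat.Coprime.pow i j (by norm_num : Nat.Coprime 3 2)).gcd_eq_one, Nat.dvd_one, orderOf_eq_one_iff] at h
        exact h
      refine ⟨P, ?_, ?_⟩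
      · change d ∈ Subgroup.normalizer ((P : Subgroup G) : Set G)
        rw [hP, Subgroup.normalizer_eq_top]; trivial
      · rw [eq_top_iff]
        exact le_trans (Components.le_pCore hG2) le_sup_right
    push Not at hcen
    obtain ⟨e, he, hde⟩ := hcen
    have hnotM : ∀ x ∈ D, x ∉ M := by
      intro x hx hxM
      rcases hne1 x hx with h | h
      · exact h (hMle hxM)
      · exact hde ((hsame x hx d hd (h d hd) e he).mp (h e he))
    have hTq : IsThreeTranspositionSet (π '' D) := by
      refine ⟨?_, ?_⟩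
      · rintro _ ⟨x, hx, rfl⟩
        exact orderOf_eq_prime (by rw [← map_pow, pow_two, mul_self (hT.1 x hx), map_one])
          (fun h => hnotM x hx ((hπ1 x).mp h))
      · rintro _ ⟨x, hx, rfl⟩ _ ⟨y, hy, rfl⟩
        rw [← map_mul, ← map_pow, ← map_pow]
        rcases hT.2 x hx y hy with h | h
        · exact Or.inl (by rw [h, map_one])
        · exact Or.inr (by rw [h, map_one])
    have hcq : ∀ g, ∀ x ∈ π '' D, g * x * g⁻¹ ∈ π '' D := by
      rintro g _ ⟨x, hx, rfl⟩
      obtain ⟨g, rfl⟩ := hπs g
      exact ⟨g * x * g⁻¹, hc g x hx, by simp⟩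
    have hgenq : Subgroup.closure (π '' D) = ⊤ := by
      rw [← MonoidHom.map_closure, hgen, Subgroup.map_top_of_surjective _ hπs]
    have hcommq : ∀ a ∈ D, ∀ b ∈ D, Commute (π a) (π b) → Commute a b := by
      intro a ha b hb h
      by_contra hne
      have h3 : π (a * b) ^ 3 = 1 := by rw [← map_pow, cube_of_not_commute hT ha hb hne, map_one]
      have h2' : π (a * b) ^ 2 = 1 := by
        rw [map_mul, h.mul_pow, ← map_pow, ← map_pow, pow_two, pow_two, mul_self (hT.1 a ha), mul_self (hT.1 b hb),
          map_one, one_mul]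
      have hmem := (hπ1 _).mp (eq_one_of_sq_of_two_three h2' h3)
      obtain ⟨k, hk⟩ := hM2 ⟨_, hmem⟩
      exact hne (commute_of_two_pow hT ha hb (congrArg Subtype.val hk))
    have hsameq : ∀ a ∈ π '' D, ∀ b ∈ π '' D, Commute a b → ∀ x ∈ π '' D, Commute a x ↔ Commute b x := by
      rintro _ ⟨a, ha, rfl⟩ _ ⟨b, hb, rfl⟩ hab _ ⟨x, hx, rfl⟩
      have h := hsame a ha b hb (hcommq a ha b hb hab) x hx
      exact ⟨fun h' => (h.mp (hcommq a ha x hx h')).map π, fun h' => (h.mpr (hcommq b hb x hx h')).map π⟩
    have hcard : Nat.card (G ⧸ M) ≤ n := by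
      have h1 := Subgroup.card_eq_card_quotient_mul_card_subgroup M
      have h2 : 1 < Nat.card M := (Subgroup.one_lt_card_iff_ne_bot M).mpr hMne
      have h3 : 0 < Nat.card (G ⧸ M) := Nat.card_pos
      have h4 : 2 * Nat.card (G ⧸ M) ≤ Nat.card G := by rw [h1, mul_comm]; exact Nat.mul_le_mul_left _ h2
      omega
    obtain ⟨Q, hdQ, hQtop⟩ := ih hTq hcq hgenq hsameq (d := π d) ⟨d, hd, rfl⟩ hcard
    obtain ⟨P₀⟩ : Nonempty (Sylow 3 G) := inferInstance
    obtain ⟨g, hg⟩ := MulAction.exists_smul_eq (G ⧸ M) (P₀.mapSurjective hπs) Q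
    obtain ⟨g, rfl⟩ := hπs g
    set P := g • P₀ with hPdef
    have hPQ : (P : Subgroup G).map π = Q := by
      rw [← hg, hPdef, Sylow.coe_subgroup_smul, Sylow.coe_subgroup_smul, Sylow.coe_mapSurjective]
      ext y
      simp only [Subgroup.mem_map, Subgroup.mem_pointwise_smul_iff_inv_smul_mem]
      constructor
      · rintro ⟨x, hx, rfl⟩
        exact ⟨_, hx, by simp [MulAut.smul_def]⟩
      · rintro ⟨x, hx, hxy⟩
        refine ⟨g * x * g⁻¹, by simpa [MulAut.smul_def, mul_assoc] using hx, ?_⟩
        simp only [MulAut.smul_def, MulAut.conj_inv_apply] at hxy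
        rw [map_mul, map_mul, map_inv, hxy]; group
    -- `d` moves `P` inside `M ⊔ P`
    set X := M ⊔ (P : Subgroup G) with hX
    have hXeq : X = (Q : Subgroup (G ⧸ M)).comap π := by
      rw [← hPQ, Subgroup.comap_map_eq, QuotientGroup.ker_mk', hX, sup_comm]
    have hPd : ((d • P : Sylow 3 G) : Subgroup G) ≤ X := by
      rw [hXeq, Sylow.coe_subgroup_smul]
      intro x hx
      rw [Subgroup.mem_pointwise_smul_iff_inv_smul_mem] at hx
      have hx' : π d⁻¹ * π x * π d ∈ (Q : Subgroup (G ⧸ M)) := by
        rw [← hPQ]; exact ⟨_, hx, by simp [MulAut.smul_def]⟩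
      rw [Subgroup.mem_comap]
      have := (Subgroup.mem_normalizer_iff.mp hdQ _).mp hx'
      simpa [mul_assoc] using this
    obtain ⟨⟨x, hxX⟩, hx⟩ := MulAction.exists_smul_eq X (P.subtype (le_sup_right : (P : Subgroup G) ≤ X))
      ((d • P).subtype hPd)
    have hxP : ∀ y, y ∈ (P : Subgroup G) ↔ d⁻¹ * x * y * x⁻¹ * d ∈ (P : Subgroup G) := by
      intro y
      by_cases hyX : x * y * x⁻¹ ∈ X
      · have h := SetLike.ext_iff.mp (congrArg (fun S : Sylow 3 X => (S : Subgroup X)) hx) ⟨_, hyX⟩
        simp only [Sylow.coe_subgroup_smul, Sylow.coe_subtype, Subgroup.mem_pointwise_smul_iff_inv_smul_mem,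
          Subgroup.mem_subgroupOf] at h
        simpa [MulAut.smul_def, mul_assoc] using h
      · constructor
        · intro hy
          exact absurd (mul_mem (mul_mem hxX (le_sup_right (a := M) hy)) (inv_mem hxX)) hyX
        · intro hy
          refine absurd ?_ hyX
          refine hPd ?_
          rw [Sylow.coe_subgroup_smul, Subgroup.mem_pointwise_smul_iff_inv_smul_mem]
          simpa [MulAut.smul_def, mul_assoc] using hy
    have hxX' : x ∈ ((M ⊔ (P : Subgroup G) : Subgroup G) : Set G) := hxX
    rw [Subgroup.normal_mul] at hxX'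
    obtain ⟨m, hm, p, hp, rfl⟩ := Set.mem_mul.mp hxX'
    -- `d * m` normalises `P`
    have hdm : d * m ∈ Subgroup.normalizer ((P : Subgroup G) : Set G) := by
      rw [Subgroup.mem_normalizer_iff]
      intro y
      have hdi := inv_eq (hT.1 d hd)
      constructor
      · intro hy
        have := (hxP (p⁻¹ * y * p)).mp (mul_mem (mul_mem (inv_mem hp) hy) hp)
        rw [hdi] at this
        simpa [mul_assoc, mul_inv_rev, hdi] using this
      · intro hy
        have := (hxP (p⁻¹ * y * p)).mpr (by rw [hdi]; simpa [mul_assoc, mul_inv_rev, hdi] using hy)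
        have h' := mul_mem (mul_mem hp this) (inv_mem hp)
        simpa [mul_assoc] using h'
    -- correct `m` so that `d * m` becomes an involution
    have hMcomm : ∀ a ∈ M, ∀ b ∈ M, a * b = b * a := fun a ha b hb => hAcomm a ha.1 b hb.1
    have hMsq : ∀ a ∈ M, a * a = 1 := fun a ha => ha.2
    have hdM : ∀ a ∈ M, d * a * d ∈ M := fun a ha => by
      simpa [inv_eq (hT.1 d hd)] using hMn.conj_mem a ha d
    set k := d * m * (d * m) with hk
    have hkM : k ∈ M := by
      rw [hk, show d * m * (d * m) = d * m * d * m by group]; exact mul_mem (hdM m hm) hm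
    have hkP : ∀ s ∈ (P : Subgroup G), s * k * s⁻¹ = k := by
      intro s hs
      have h1 : s * k * s⁻¹ * k⁻¹ ∈ (P : Subgroup G) := by
        rw [show s * k * s⁻¹ * k⁻¹ = s * (k * s⁻¹ * k⁻¹) by group]
        exact mul_mem hs ((Subgroup.mem_normalizer_iff.mp (mul_mem hdm hdm) _).mp (inv_mem hs))
      have h2 : s * k * s⁻¹ * k⁻¹ ∈ M := mul_mem (hMn.conj_mem k hkM s) (inv_mem hkM)
      obtain ⟨i, hi⟩ := P.isPGroup' ⟨_, h1⟩
      obtain ⟨j, hj⟩ := hM2 ⟨_, h2⟩
      have h := Nat.dvd_gcd (orderOf_dvd_of_pow_eq_one (congrArg Subtype.val hi) : orderOf _ ∣ 3 ^ i)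
        (orderOf_dvd_of_pow_eq_one (congrArg Subtype.val hj) : orderOf _ ∣ 2 ^ j)
      rw [(Nat.Coprime.pow i j (by norm_num : Nat.Coprime 3 2)).gcd_eq_one, Nat.dvd_one, orderOf_eq_one_iff] at h
      exact mul_inv_eq_one.mp h
    obtain ⟨c₁, hc₁, hc₁P, hc₁k⟩ : ∃ c₁ ∈ M, (∀ s ∈ (P : Subgroup G), s * c₁ = c₁ * s) ∧ d * c₁ * d * c₁ = k := by
      classical
      letI : CommGroup M :=
        { (inferInstance : Group M) with mul_comm := fun a b => Subtype.ext (hMcomm a a.2 b b.2) }
      haveI : Fintype (P : Subgroup G) := Fintype.ofFinite _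
      let act : G → M →* M := fun s =>
        { toFun := fun a => ⟨s * a * s⁻¹, hMn.conj_mem a a.2 s⟩
          map_one' := Subtype.ext (by simp)
          map_mul' := fun a b => Subtype.ext (by simp only [Subgroup.coe_mul]; group) }
      let avg : M := ∏ s : (P : Subgroup G), act s ⟨m, hm⟩
      have hinvar : ∀ s : (P : Subgroup G), act s avg = avg := by
        intro s
        rw [map_prod]
        refine Fintype.prod_equiv (Equiv.mulLeft s) _ _ fun r => Subtype.ext ?_
        show (s : G) * ((r : G) * m * (r : G)⁻¹) * (s : G)⁻¹ =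
          ((s * r : (P : Subgroup G)) : G) * m * ((s * r : (P : Subgroup G)) : G)⁻¹
        rw [Subgroup.coe_mul]; group
      refine ⟨(avg : G), avg.2, fun s hs => ?_, ?_⟩
      · exact mul_inv_eq_iff_eq_mul.mp (congrArg Subtype.val (hinvar ⟨s, hs⟩))
      · let τ : (P : Subgroup G) ≃ (P : Subgroup G) :=
          { toFun := fun r => ⟨d * m * r * (d * m)⁻¹, (Subgroup.mem_normalizer_iff.mp hdm _).mp r.2⟩
            invFun := fun r => ⟨(d * m)⁻¹ * r * (d * m), by
              simpa using (Subgroup.mem_normalizer_iff.mp (inv_mem hdm) _).mp r.2⟩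
            left_inv := fun r => Subtype.ext (by simp only; group)
            right_inv := fun r => Subtype.ext (by simp only; group) }
        have hsum : act d avg * avg = (⟨k, hkM⟩ : M) ^ Nat.card (P : Subgroup G) := by
          rw [map_prod, Nat.card_eq_fintype_card]
          have : ∀ r : (P : Subgroup G), act d (act r ⟨m, hm⟩) * act (τ r : G) ⟨m, hm⟩ = ⟨k, hkM⟩ := by
            intro r
            apply Subtype.ext
            show d * ((r : G) * m * (r : G)⁻¹) * d⁻¹ * ((d * m * r * (d * m)⁻¹) * m * (d * m * r * (d * m)⁻¹)⁻¹) = k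
            have hk1 := hkP r r.2
            have hMr : (r : G) * m * (r : G)⁻¹ ∈ M := hMn.conj_mem m hm r
            have h' : d * m * r * (d * m)⁻¹ * m * (d * m * r * (d * m)⁻¹)⁻¹
                = d * (m * ((r : G) * (m⁻¹ * d * m * d * m) * (r : G)⁻¹) * m⁻¹) * d⁻¹ := by
              simp only [mul_inv_rev, inv_inv, inv_eq (hT.1 d hd)]; group
            rw [h', inv_eq (hT.1 d hd)]
            have hi : m⁻¹ * d * m * d * m = d * m * d := by
              rw [show m⁻¹ * d * m * d * m = m⁻¹ * ((d * m * d) * m) by group, hMcomm _ (hdM m hm) m hm,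
                inv_mul_cancel_left]
            have hR : (r : G) * (d * m * d) * (r : G)⁻¹ ∈ M := hMn.conj_mem _ (hdM m hm) r
            rw [hi, hMcomm m hm _ hR, mul_inv_cancel_right,
              show d * ((r : G) * m * (r : G)⁻¹) * d * (d * ((r : G) * (d * m * d) * (r : G)⁻¹) * d)
                = d * ((r : G) * m * (r : G)⁻¹) * (d * d) * ((r : G) * (d * m * d) * (r : G)⁻¹) * d by group, hdd,
              mul_one, mul_assoc d ((r : G) * m * (r : G)⁻¹),
              show (r : G) * m * (r : G)⁻¹ * ((r : G) * (d * m * d) * (r : G)⁻¹)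
                = (r : G) * (m * (d * m * d)) * (r : G)⁻¹ by group,
              hMcomm m hm _ (hdM m hm), show d * m * d * m = k by rw [hk]; group, hk1, hk,
              show d * (d * m * (d * m)) * d = (d * d) * (m * (d * m * d)) by group, hdd, one_mul,
              hMcomm m hm _ (hdM m hm)]
            group
          simp only [avg]
          rw [← Fintype.prod_equiv τ (fun r => act (τ r : G) ⟨m, hm⟩) (fun r => act (r : G) ⟨m, hm⟩) (fun r => rfl), ← Finset.prod_mul_distrib,
            Finset.prod_congr rfl (fun r _ => this r), Finset.prod_const, Finset.card_univ]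
        have hodd : Odd (Nat.card (P : Subgroup G)) := by
          obtain ⟨i, hi⟩ := IsPGroup.iff_card.mp P.isPGroup'
          rw [hi]; exact Odd.pow (by decide)
        obtain ⟨i, hi⟩ := hodd
        rw [hi, pow_succ, pow_mul, show (⟨k, hkM⟩ : M) ^ 2 = 1 from Subtype.ext (by
          rw [SubmonoidClass.coe_pow, pow_two, hMsq k hkM]; rfl), one_pow, one_mul] at hsum
        have h := congrArg Subtype.val hsum
        change d * (avg : G) * d⁻¹ * (avg : G) = k at h
        rwa [inv_eq (hT.1 d hd)] at h
    set c := m * c₁ with hcdef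
    have hcM : c ∈ M := mul_mem hm hc₁
    have hsplit : d * c * d * c = 1 := by
      have hcd : d * c₁ * d ∈ M := hdM c₁ hc₁
      calc d * c * d * c = d * m * d * ((d * c₁ * d) * m) * c₁ := by
            rw [hcdef, show d * m * d * (d * c₁ * d * m) * c₁ = d * m * (d * d) * c₁ * d * m * c₁ by group, hdd]
            group
        _ = d * m * d * (m * (d * c₁ * d)) * c₁ := by rw [hMcomm _ hcd m hm]
        _ = (d * m * d * m) * (d * c₁ * d * c₁) := by group
        _ = 1 := by rw [hc₁k, hk, ← mul_assoc (d * m) d m, hMsq]; rw [← mul_assoc (d * m) d m] at hk; rw [← hk]; exact hkM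
    have hdc : d * c = c * d := by
      have h := eq_inv_of_mul_eq_one_left hsplit
      rw [inv_eq_of_mul_eq_one_right (hMsq c hcM)] at h
      calc d * c = (d * c * d) * d := by rw [mul_assoc (d * c) d d, hdd, mul_one]
        _ = c * d := by rw [h]
    obtain ⟨t, ht⟩ : ∃ t, t = d * c := ⟨_, rfl⟩
    have htN : t ∈ Subgroup.normalizer ((P : Subgroup G) : Set G) := by
      rw [ht, hcdef, ← mul_assoc]
      refine mul_mem hdm ?_
      rw [Subgroup.mem_normalizer_iff]
      intro y
      constructor
      · intro hy; rwa [← hc₁P y hy, mul_inv_cancel_right]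
      · intro hy
        have := hc₁P _ hy
        rw [inv_mul_cancel_right] at this
        rwa [mul_left_cancel this.symm] at hy
    have htt : t * t = 1 := by rw [ht, ← mul_assoc]; exact hsplit
    have htM : ∀ a ∈ M, t * a * t = d * a * d := by
      intro a ha
      rw [ht]
      calc d * c * a * (d * c) = d * (c * a) * (d * c) := by group
        _ = d * (a * c) * (c * d) := by rw [hMcomm c hcM a ha, hdc]
        _ = d * a * (c * c) * d := by group
        _ = _ := by rw [hMsq c hcM, mul_one]
    obtain ⟨c', hc', hc'P, hcob⟩ := exists_fixed (N := M) (P := (P : Subgroup G)) (t := t) hMcomm hMsq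
      (fun a ha => by rw [htM a ha]; exact hdM a ha) (fun s _ a ha => hMn.conj_mem a ha s) htt
      (fun s hs => by
        have := (Subgroup.mem_normalizer_iff.mp htN s).mp hs
        rwa [inv_eq_of_mul_eq_one_right htt] at this)
      P.isPGroup' hcM (by rw [ht, ← mul_assoc c d c, ← hdc])
      (fun z hz hzt => by
        -- `z d z⁻¹` is conjugate to `d` inside `M`
        have hzd : z * d * z⁻¹ = d * (c * (z * c * z⁻¹)) := by
          calc z * d * z⁻¹ = z * (t * c) * z⁻¹ := by rw [ht, mul_assoc d c c, hMsq c hcM, mul_one]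
            _ = (z * t) * c * z⁻¹ := by group
            _ = d * (c * (z * c * z⁻¹)) := by rw [hzt, ht]; group
        have hzc := hMn.conj_mem c hcM z
        have hv := hc z d hd
        have hdv : d * (z * d * z⁻¹) ∈ M := by
          rw [hzd, ← mul_assoc, hdd, one_mul]; exact mul_mem hcM hzc
        have hcm : Commute d (z * d * z⁻¹) := by
          obtain ⟨i, hi⟩ := hM2 ⟨_, hdv⟩
          exact commute_of_two_pow hT hd hv (congrArg Subtype.val hi)
        obtain ⟨g, hg, hgv⟩ := exists_conj_in hT hc hMn hd hv he hde (hsame d hd _ hv hcm) hdv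
        refine ⟨g, hg, ?_⟩
        rw [hMcomm _ hzc c hcM, htM g hg]
        have := congrArg (d * ·) hzd
        simp only [← mul_assoc d d, hdd, one_mul] at this
        rw [← this, ← hgv, inv_eq_of_mul_eq_one_right (hMsq g hg)]
        group)
    obtain ⟨q, hq, hqc⟩ := hcob
    rw [htM q hq] at hqc
    have hqd : q * d * q = t * c' := by
      calc q * d * q = (d * d) * q * d * q := by rw [hdd, one_mul]
        _ = d * (d * q * d * q) := by group
        _ = d * (c * c') := by rw [hqc]
        _ = t * c' := by rw [ht]; group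
    have hqN : q * d * q ∈ Subgroup.normalizer ((P : Subgroup G) : Set G) := by
      rw [hqd]
      refine mul_mem htN ?_
      rw [Subgroup.mem_normalizer_iff]
      intro y
      constructor
      · intro hy; rwa [← hc'P y hy, mul_inv_cancel_right]
      · intro hy
        have := hc'P _ hy
        rw [inv_mul_cancel_right] at this
        rwa [mul_left_cancel this.symm] at hy
    have hqi := inv_eq_of_mul_eq_one_right (hMsq q hq)
    refine ⟨q • P, ?_, ?_⟩
    · change d ∈ Subgroup.normalizer (((q • P : Sylow 3 G) : Subgroup G) : Set G)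
      rw [Subgroup.mem_normalizer_iff]
      intro y
      simp only [Sylow.coe_subgroup_smul, Subgroup.mem_pointwise_smul_iff_inv_smul_mem, MulAut.smul_def,
        MulAut.conj_inv_apply, hqi]
      have h := Subgroup.mem_normalizer_iff.mp hqN (q * y * q)
      rw [mul_inv_rev, mul_inv_rev, hqi, inv_eq (hT.1 d hd)] at h
      rw [inv_eq (hT.1 d hd)]
      refine h.trans ?_
      rw [show q * d * q * (q * y * q) * (q * (d * q)) = q * d * (q * q) * y * (q * q) * d * q by group, hMsq q hq,
        show q * d * 1 * y * 1 * d * q = q * (d * y * d) * q by group]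
    · -- generation
      have hmap : ((q • P : Sylow 3 G) : Subgroup G).map π = Q := by
        rw [← hPQ, Sylow.coe_subgroup_smul]
        have hπq : π q = 1 := (hπ1 q).mpr hq
        ext y
        simp only [Subgroup.mem_map, Subgroup.mem_pointwise_smul_iff_inv_smul_mem, MulAut.smul_def,
          MulAut.conj_inv_apply]
        constructor
        · rintro ⟨x, hx, rfl⟩; exact ⟨_, hx, by simp [hπq]⟩
        · rintro ⟨x, hx, rfl⟩; exact ⟨q * x * q⁻¹, by simpa [mul_assoc] using hx, by simp [hπq]⟩
      have hcore : pCore 2 (G ⧸ M) ≤ (pCore 2 G).map π := by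
        intro y hy
        obtain ⟨x, rfl⟩ := hπs y
        refine ⟨x, ?_, rfl⟩
        refine Components.le_pCore (N := (pCore 2 (G ⧸ M)).comap π) ?_ hy
        exact (Components.pCore_isPGroup (G := G ⧸ M) 2).comap_of_ker_isPGroup π
          (by rw [QuotientGroup.ker_mk']; exact hM2)
      set H := Subgroup.zpowers d ⊔ ((q • P : Sylow 3 G) : Subgroup G) ⊔ pCore 2 G with hH
      have hMH : M ≤ H := hMle.trans le_sup_right
      have htop : H.map π = ⊤ := by
        rw [eq_top_iff, ← hQtop, hH, Subgroup.map_sup, Subgroup.map_sup, MonoidHom.map_zpowers, hmap]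
        exact sup_le_sup le_rfl hcore
      rw [← Subgroup.comap_map_eq_self (f := π) (H := H) (by rw [QuotientGroup.ker_mk']; exact hMH), htop,
        Subgroup.comap_top]

end Cfsg.Agent.Lib.ThreeTransp
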