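import Cfsg.Agent.Lib.ThreeTransp.Planes

/-! Fischer spaces. -/
set_option autoImplicit false

namespace Cfsg.Agent.Lib.ThreeTransp.Fischer

open Cfsg Cfsg.LineSystem

/-- A model of a plane gives the isomorphism type of the span of two lines. -/
theorem plane_iso {X P : Type*} {L : Set (Set X)} (hpl : IsPartialLinear L) (hcard : ∀ l ∈ L, l.ncard = 3)
    {M : Set (Set P)} (f : P → X) (hinj : Function.Injective f) (H1 : ∀ m ∈ M, f '' m ∈ L)
    (H2 : ∀ p q, p ≠ q → ∀ l ∈ L, f p ∈ l → f q ∈ l → ∃ m ∈ M, p ∈ m ∧ q ∈ m) {l m : Set X}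
    (hl : l ⊆ Set.range f) (hm : m ⊆ Set.range f)
    (Hgen : ∀ T : Set X, l ∪ m ⊆ T → IsSubspace L T → Set.range f ⊆ T) :
    Isomorphic (restrict L (span L (l ∪ m))) M := by
  have hline : ∀ p q, p ≠ q → ∀ k ∈ L, f p ∈ k → f q ∈ k → ∃ j ∈ M, f '' j = k := by
    intro p q hne k hk hp hq
    obtain ⟨j, hj, hpj, hqj⟩ := H2 p q hne k hk hp hq
    exact ⟨j, hj, hpl _ (H1 j hj) k hk _ _ (fun e => hne (hinj e)) ⟨p, hpj, rfl⟩ ⟨q, hqj, rfl⟩ hp hq⟩
  have hsub : IsSubspace L (Set.range f) := by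
    rintro k hk _ ⟨p, rfl⟩ _ ⟨q, rfl⟩ hne hp hq
    obtain ⟨j, -, rfl⟩ := hline p q (fun e => hne (congrArg f e)) k hk hp hq
    exact Set.image_subset_range f j
  have hspan : span L (l ∪ m) = Set.range f := by
    refine Set.Subset.antisymm (fun x hx => hx _ ⟨Set.union_subset hl hm, hsub⟩) ?_
    intro x hx T hT
    exact Hgen T hT.1 hT.2 hx
  rw [hspan]
  refine ⟨(Equiv.ofInjective f hinj).symm, fun s => ?_⟩
  constructor
  · rintro ⟨k, hk, hksub, rfl⟩
    obtain ⟨u, hu, w, hw, huw⟩ := (Set.one_lt_ncard (Set.finite_of_ncard_ne_zero (by rw [hcard k hk]; omega))).mp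
      (by rw [hcard k hk]; omega)
    obtain ⟨p, rfl⟩ := hksub hu
    obtain ⟨q, rfl⟩ := hksub hw
    obtain ⟨j, hj, rfl⟩ := hline p q (fun e => huw (congrArg f e)) k hk hu hw
    convert hj using 1
    ext r
    constructor
    · rintro ⟨⟨_, p', rfl⟩, hz, rfl⟩
      obtain ⟨p'', hp'', e⟩ := hz
      rw [Equiv.ofInjective_symm_apply]
      exact hinj e ▸ hp''
    · intro hr
      exact ⟨⟨f r, r, rfl⟩, ⟨r, hr, rfl⟩, Equiv.ofInjective_symm_apply hinj r⟩
  · intro hs
    refine ⟨_, H1 _ hs, Set.image_subset_range f _, ?_⟩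
    ext z
    obtain ⟨_, p, rfl⟩ := z
    constructor
    · intro hz
      exact ⟨p, ⟨_, hz, Equiv.ofInjective_symm_apply hinj p⟩, rfl⟩
    · rintro ⟨q, ⟨w, hw, hwq⟩, e⟩
      obtain ⟨_, p', rfl⟩ := w
      rw [Equiv.ofInjective_symm_apply] at hwq
      subst hwq
      have : p' = p := hinj e
      subst this
      exact hw

/-- The transposition attached to a point of the dual affine plane. -/
def tr (s : DualAffinePoint) : Equiv.Perm (Fin 4) :=
  if (0 : Fin 4) ∈ s.val then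
    (if (1 : Fin 4) ∈ s.val then Equiv.swap 0 1 else if (2 : Fin 4) ∈ s.val then Equiv.swap 0 2 else Equiv.swap 0 3)
  else if (1 : Fin 4) ∈ s.val then (if (2 : Fin 4) ∈ s.val then Equiv.swap 1 2 else Equiv.swap 1 3)
  else Equiv.swap 2 3

theorem tr_injective : Function.Injective tr := by unfold Function.Injective; decide +kernel

theorem tr_conj : ∀ s, tr s = Equiv.swap 0 1 ∨ tr s = Equiv.swap 1 2 * Equiv.swap 0 1 * (Equiv.swap 1 2)⁻¹ ∨
    tr s = Equiv.swap 1 3 * Equiv.swap 0 1 * (Equiv.swap 1 3)⁻¹ ∨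
    tr s = Equiv.swap 0 2 * Equiv.swap 0 1 * (Equiv.swap 0 2)⁻¹ ∨
    tr s = Equiv.swap 0 3 * Equiv.swap 0 1 * (Equiv.swap 0 3)⁻¹ ∨
    tr s = (Equiv.swap 0 2 * Equiv.swap 1 3) * Equiv.swap 0 1 * (Equiv.swap 0 2 * Equiv.swap 1 3)⁻¹ := by
  decide +kernel

theorem tr_commute : ∀ p q : DualAffinePoint, p = q ∨ tr p * tr q = tr q * tr p ∨ ∃ i : Fin 4, i ∉ p.val ∧ i ∉ q.val := by
  decide +kernel

theorem tr_line : ∀ i : Fin 4, ∃ p q : DualAffinePoint, tr p * tr q ≠ tr q * tr p ∧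
    ∀ s : DualAffinePoint, i ∉ s.val ↔ (tr s = tr p ∨ tr s = tr q ∨ tr s = tr q * tr p * (tr q)⁻¹) := by
  decide +kernel

theorem tr_third : ∀ p q : DualAffinePoint, tr p * tr q ≠ tr q * tr p → ∃ s : DualAffinePoint, tr s = tr q * tr p * (tr q)⁻¹ := by
  decide +kernel

section lines

variable {G : Type*} [Group G] {D : Set G}

/-- The line through two members. -/
def ln (D : Set G) (x y : G) : Set D := {z : D | (z : G) = x ∨ (z : G) = y ∨ (z : G) = y * x * y⁻¹}

variable (hT : IsThreeTranspositionSet D) (hc : ∀ g : G, ∀ d ∈ D, g * d * g⁻¹ ∈ D)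

include hT in
theorem third_facts {x y : G} (hx : x ∈ D) (hy : y ∈ D) (h : ¬ Commute x y) :
    y * x * y⁻¹ = x * y * x ∧ y * x * y⁻¹ ≠ x ∧ y * x * y⁻¹ ≠ y ∧ x ≠ y := by
  have hb := braid_of_not_commute hT hx hy h
  refine ⟨by rw [inv_eq (hT.1 y hy), hb], fun e => h (mul_inv_eq_iff_eq_mul.mp e).symm, fun e => ?_, fun e => h (e ▸ Commute.refl x)⟩
  rw [mul_inv_eq_iff_eq_mul] at e
  exact h ((mul_left_cancel e) ▸ Commute.refl y)

include hT hc in
theorem ln_pair {x y : G} (hx : x ∈ D) (hy : y ∈ D) (h : ¬ Commute x y) {a b : D} (ha : a ∈ ln D x y)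
    (hb : b ∈ ln D x y) (hab : a ≠ b) : ¬ Commute (a : G) (b : G) ∧ ln D (a : G) b = ln D x y := by
  obtain ⟨hz, hzx, hzy, hxy⟩ := third_facts hT hx hy h
  have hzD := hc y x hx
  set z := y * x * y⁻¹ with hzdef
  have hxx := mul_self (hT.1 x hx)
  have hyy := mul_self (hT.1 y hy)
  have hxi := inv_eq (hT.1 x hx)
  have hyi := inv_eq (hT.1 y hy)
  have hzi := inv_eq (hT.1 z hzD)
  have hz2 : z = y * x * y := by rw [hzdef, hyi]
  have exz : x * z * x = y := by
    rw [hz, show x * (x * y * x) * x = (x * x) * y * (x * x) by group, hxx, one_mul, mul_one]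
  have eyz : y * z * y = x := by
    rw [hz2, show y * (y * x * y) * y = (y * y) * x * (y * y) by group, hyy, one_mul, mul_one]
  have hcxz : ¬ Commute x z := fun hc' => hzy (by
    rw [← exz, mul_assoc, ← hc'.eq, ← mul_assoc, hxx, one_mul])
  have hcyz : ¬ Commute y z := fun hc' => hzx (by
    rw [← eyz, mul_assoc, ← hc'.eq, ← mul_assoc, hyy, one_mul])
  have ezx : z * x * z = y := by
    rw [← braid_of_not_commute hT hx hzD hcxz, exz]
  have ezy : z * y * z = x := by
    rw [← braid_of_not_commute hT hy hzD hcyz, eyz]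
  have key : ∀ p q r : G, p ∈ D → q ∈ D → q * p * q⁻¹ = r →
      (∀ w : G, (w = p ∨ w = q ∨ w = r) ↔ (w = x ∨ w = y ∨ w = z)) → ln D p q = ln D x y := by
    intro p q r _ _ e hiff
    ext w
    show ((w : G) = p ∨ (w : G) = q ∨ (w : G) = q * p * q⁻¹) ↔ ((w : G) = x ∨ (w : G) = y ∨ (w : G) = z)
    rw [e]; exact hiff w
  rcases ha with ea | ea | ea <;> rcases hb with eb | eb | eb <;> rw [ea, eb]
  · exact absurd (Subtype.ext (ea.trans eb.symm)) hab
  · exact ⟨h, rfl⟩
  · exact ⟨hcxz, key x z y hx hzD (by rw [hzi, ezx]) (fun w => by tauto)⟩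
  · exact ⟨fun hc' => h hc'.symm, key y x z hy hx (by rw [hxi, ← hz]) (fun w => by tauto)⟩
  · exact absurd (Subtype.ext (ea.trans eb.symm)) hab
  · exact ⟨hcyz, key y z x hy hzD (by rw [hzi, ezy]) (fun w => by tauto)⟩
  · exact ⟨fun hc' => hcxz hc'.symm, key z x y hzD hx (by rw [hxi, exz]) (fun w => by tauto)⟩
  · exact ⟨fun hc' => hcyz hc'.symm, key z y x hzD hy (by rw [hyi, eyz]) (fun w => by tauto)⟩
  · exact absurd (Subtype.ext (ea.trans eb.symm)) hab

include hT hc in
theorem ln_card {x y : G} (hx : x ∈ D) (hy : y ∈ D) (h : ¬ Commute x y) : (ln D x y).ncard = 3 := by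
  obtain ⟨-, hzx, hzy, hxy⟩ := third_facts hT hx hy h
  have e : ln D x y = {⟨x, hx⟩, ⟨y, hy⟩, ⟨_, hc y x hx⟩} := by
    ext w; simp only [ln, Set.mem_insert_iff, Set.mem_singleton_iff, Subtype.ext_iff]; rfl
  rw [e, Set.ncard_eq_three]
  exact ⟨_, _, _, fun e => hxy (congrArg Subtype.val e), fun e => hzx (congrArg Subtype.val e).symm,
    fun e => hzy (congrArg Subtype.val e).symm, rfl⟩

include hT hc in
theorem partial_linear : IsPartialLinear (threeTranspositionLines D) := by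
  rintro l ⟨x, y, hxy, rfl⟩ m ⟨u, w, huw, rfl⟩ a b hab hal hbl ham hbm
  exact (ln_pair hT hc x.2 y.2 hxy hal hbl hab).2.symm.trans (ln_pair hT hc u.2 w.2 huw ham hbm hab).2

include hT hc in
theorem fischer : IsFischerSpace (threeTranspositionLines D) := by
  have hpl := partial_linear hT hc
  have hcard : ∀ l ∈ threeTranspositionLines D, l.ncard = 3 := by
    rintro l ⟨x, y, hxy, rfl⟩; exact ln_card hT hc x.2 y.2 hxy
  refine ⟨hpl, hcard, ?_⟩
  intro l hl m hm hne hlm
  obtain ⟨a, hal, ham⟩ := hlm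
  have hnorm : ∀ k ∈ threeTranspositionLines D, a ∈ k →
      ∃ b : D, b ∈ k ∧ ¬ Commute (a : G) b ∧ k = ln D (a : G) b := by
    intro k hk hak
    obtain ⟨u, hu, w, hw, huw⟩ := (Set.one_lt_ncard (Set.finite_of_ncard_ne_zero (by rw [hcard k hk]; omega))).mp
      (by rw [hcard k hk]; omega)
    obtain ⟨x, y, hxy, rfl⟩ := hk
    by_cases hau : a = u
    · exact ⟨w, hw, (ln_pair hT hc x.2 y.2 hxy hak hw (hau ▸ huw)).1,
        (ln_pair hT hc x.2 y.2 hxy hak hw (hau ▸ huw)).2.symm⟩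
    · exact ⟨u, hu, (ln_pair hT hc x.2 y.2 hxy hak hu hau).1, (ln_pair hT hc x.2 y.2 hxy hak hu hau).2.symm⟩
  obtain ⟨b, hbl, hab, hl'⟩ := hnorm l hl hal
  obtain ⟨c, hcm, hac, hm'⟩ := hnorm m hm ham
  by_cases hA : ∃ b₁ : D, b₁ ∈ l ∧ b₁ ≠ a ∧ Commute (b₁ : G) c
  · -- the symmetric group of degree 4
    left
    obtain ⟨b₁, hb₁l, hb₁a, hbc⟩ := hA
    rw [hl'] at hb₁l
    obtain ⟨hab₁, hl₁⟩ := ln_pair hT hc a.2 b.2 hab (Or.inl rfl : a ∈ ln D (a : G) b) hb₁l (Ne.symm hb₁a)
    have hb₁c : (b₁ : G) ≠ c := fun e => by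
      have : b₁ = c := Subtype.ext e
      apply hne
      refine hpl l hl m hm a b₁ (Ne.symm hb₁a) hal ?_ ham (this ▸ hcm)
      rw [hl']; exact hb₁l
    obtain ⟨φ, hφ, h01, h12, h23⟩ := SymFour.exists_hom (b₁ : G) (a : G) (c : G) (mul_self (hT.1 _ b₁.2))
      (mul_self (hT.1 _ a.2)) (mul_self (hT.1 _ c.2)) (braid_of_not_commute hT b₁.2 a.2 (fun h => hab₁ h.symm))
      (braid_of_not_commute hT a.2 c.2 hac) hbc
      (fun e => hb₁c (by rw [eq_inv_of_mul_eq_one_left e, inv_eq (hT.1 _ c.2)]))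
    have hmem : ∀ s, φ (tr s) ∈ D := by
      intro s
      rcases tr_conj s with e | e | e | e | e | e <;> rw [e]
      · rw [h01]; exact b₁.2
      all_goals rw [map_mul, map_mul, map_inv, h01]; exact hc _ _ b₁.2
    let f : DualAffinePoint → D := fun s => ⟨φ (tr s), hmem s⟩
    have hf : Function.Injective f := fun s t e => tr_injective (hφ (congrArg Subtype.val e))
    have H1 : ∀ k ∈ dualAffinePlaneTwo, f '' k ∈ threeTranspositionLines D := by
      rintro _ ⟨i, rfl⟩
      obtain ⟨p, q, hpq, hiff⟩ := tr_line i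
      refine ⟨f p, f q, fun h => hpq (hφ (by rw [map_mul, map_mul]; exact h.eq)), Set.ext fun w => ?_⟩
      constructor
      · rintro ⟨s, hs, rfl⟩
        rcases (hiff s).mp hs with e | e | e
        · exact Or.inl (congrArg φ e)
        · exact Or.inr (Or.inl (congrArg φ e))
        · exact Or.inr (Or.inr ((congrArg φ e).trans (by rw [map_mul, map_mul, map_inv])))
      · intro hw
        have hex := tr_third p q hpq
        rcases hw with e | e | e
        · exact ⟨p, (hiff p).mpr (Or.inl rfl), Subtype.ext e.symm⟩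
        · exact ⟨q, (hiff q).mpr (Or.inr (Or.inl rfl)), Subtype.ext e.symm⟩
        · obtain ⟨s, hs⟩ := hex
          exact ⟨s, (hiff s).mpr (Or.inr (Or.inr hs)), Subtype.ext ((show φ (tr s) = _ by
            rw [hs, map_mul, map_mul, map_inv]).trans e.symm)⟩
    have H2 : ∀ p q, p ≠ q → ∀ k ∈ threeTranspositionLines D, f p ∈ k → f q ∈ k →
        ∃ j ∈ dualAffinePlaneTwo, p ∈ j ∧ q ∈ j := by
      rintro p q hpq _ ⟨x, y, hxy, rfl⟩ hp hq
      have h := (ln_pair hT hc x.2 y.2 hxy hp hq (fun e => hpq (hf e))).1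
      rcases tr_commute p q with e | e | ⟨i, hi⟩
      · exact absurd e hpq
      · exact absurd (show φ (tr p) * φ (tr q) = φ (tr q) * φ (tr p) by rw [← map_mul, e, map_mul]) h
      · exact ⟨_, ⟨i, rfl⟩, hi.1, hi.2⟩
    let P01 : DualAffinePoint := ⟨{0, 1}, by decide⟩
    let P12 : DualAffinePoint := ⟨{1, 2}, by decide⟩
    let P02 : DualAffinePoint := ⟨{0, 2}, by decide⟩
    let P23 : DualAffinePoint := ⟨{2, 3}, by decide⟩
    let P13 : DualAffinePoint := ⟨{1, 3}, by decide⟩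
    let P03 : DualAffinePoint := ⟨{0, 3}, by decide⟩
    have fa : f P12 = a := Subtype.ext ((congrArg φ (by decide +kernel : tr P12 = Equiv.swap 1 2)).trans h12)
    have fb : f P01 = b₁ := Subtype.ext ((congrArg φ (by decide +kernel : tr P01 = Equiv.swap 0 1)).trans h01)
    have fc : f P23 = c := Subtype.ext ((congrArg φ (by decide +kernel : tr P23 = Equiv.swap 2 3)).trans h23)
    have el : l = f '' {s : DualAffinePoint | (3 : Fin 4) ∉ s.val} :=
      hpl l hl _ (H1 _ ⟨3, rfl⟩) a b₁ (Ne.symm hb₁a) hal (by rw [hl']; exact hb₁l)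
        ⟨P12, by decide, fa⟩ ⟨P01, by decide, fb⟩
    have em : m = f '' {s : DualAffinePoint | (0 : Fin 4) ∉ s.val} :=
      hpl m hm _ (H1 _ ⟨0, rfl⟩) a c (fun e => hac (e ▸ Commute.refl _)) ham hcm
        ⟨P12, by decide, fa⟩ ⟨P23, by decide, fc⟩
    refine plane_iso hpl hcard f hf H1 H2 (el ▸ Set.image_subset_range f _) (em ▸ Set.image_subset_range f _) ?_
    intro T hT' hsub
    have m01 : f P01 ∈ T := hT' (Or.inl (el ▸ ⟨P01, by decide, rfl⟩))
    have m13 : f P13 ∈ T := hT' (Or.inr (em ▸ ⟨P13, by decide, rfl⟩))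
    have m03 : f P03 ∈ T :=
      hsub _ (H1 _ ⟨2, rfl⟩) _ m01 _ m13 (fun e => (by decide : P01 ≠ P13) (hf e))
        ⟨P01, by decide, rfl⟩ ⟨P13, by decide, rfl⟩ ⟨P03, by decide, rfl⟩
    rintro _ ⟨s, rfl⟩
    by_cases h3 : (3 : Fin 4) ∈ s.val
    · by_cases h0 : (0 : Fin 4) ∈ s.val
      · have hs : s = P03 := by revert s; decide +kernel
        exact hs ▸ m03
      · exact hT' (Or.inr (em ▸ ⟨s, h0, rfl⟩))
    · exact hT' (Or.inl (el ▸ ⟨s, h3, rfl⟩))
  · -- the affine plane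
    right
    push Not at hA
    have hbc : ¬ Commute (b : G) c := hA b hbl (fun e => hab (e ▸ Commute.refl _))
    obtain ⟨hz, hzx, hzy, -⟩ := third_facts hT a.2 b.2 hab
    set b' : D := ⟨_, hc (b : G) a a.2⟩ with hb'
    have hb'l : b' ∈ l := by rw [hl']; exact Or.inr (Or.inr rfl)
    have hb'a : b' ≠ a := fun e => hzx (congrArg Subtype.val e)
    have hbc' : ¬ Commute (b' : G) c := hA b' hb'l hb'a
    have haa := mul_self (hT.1 _ a.2)
    have hbb := mul_self (hT.1 _ b.2)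
    obtain ⟨p, p0, p10, p01, pline, pconj, psub⟩ := Planes.affine_points haa hbb (mul_self (hT.1 _ c.2))
      (cube_of_not_commute hT a.2 b.2 hab) (cube_of_not_commute hT a.2 c.2 hac) (cube_of_not_commute hT b.2 c.2 hbc)
      (by
        have := cube_of_not_commute hT b'.2 c.2 hbc'
        rwa [show (b' : G) = a * b * a from hz] at this)
    have hmem : ∀ u, p u ∈ D := fun u => by obtain ⟨g, hg⟩ := pconj u; rw [hg]; exact hc g _ a.2
    have hcne : (c : G) ≠ b ∧ (c : G) ≠ b' := by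
      have hca : c ≠ a := fun e => hac (e ▸ Commute.refl _)
      constructor
      · exact fun e => hne (hpl l hl m hm a c (Ne.symm hca) hal (by rw [Subtype.ext e]; exact hbl) ham hcm)
      · exact fun e => hne (hpl l hl m hm a c (Ne.symm hca) hal (by rw [Subtype.ext e]; exact hb'l) ham hcm)
    have p20 : p ![2, 0] = b' := by
      have h := pline 0 ![1, 0]
      rw [p0, p10, show (0 : Fin 2 → ZMod 3) + 0 - ![1, 0] = ![2, 0] by decide +kernel] at h
      rw [← h]; exact hz.symm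
    have hK : ∀ v, p v = (a : G) → v = 0 := by
      intro v hv
      have hv2 : p (-v) = (a : G) := by
        have h := pline 0 v
        rw [p0, hv, show (a : G) * a * a = a by rw [haa, one_mul]] at h
        rw [show -v = 0 + 0 - v by abel]; exact h.symm
      have hab' : (a : G) ≠ b := fun e => hab (e ▸ Commute.refl _)
      have hac' : (a : G) ≠ c := fun e => hac (e ▸ Commute.refl _)
      have h22 : p ![2, 2] = (a : G) → False := by
        intro e
        have h := pline ![1, 0] ![0, 1]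
        rw [p10, p01, show (![1, 0] : Fin 2 → ZMod 3) + ![1, 0] - ![0, 1] = ![2, 2] by decide +kernel, e] at h
        apply hcne.2
        show (c : G) = b * a * (b : G)⁻¹
        rw [inv_eq (hT.1 _ b.2), ← h, show (b : G) * (b * c * b) * b = (b * b) * c * (b * b) by group, hbb,
          one_mul, mul_one]
      have h12 : p ![1, 2] = (a : G) → False := by
        intro e
        have h := pline ![2, 0] ![0, 1]
        rw [p20, p01, show (![2, 0] : Fin 2 → ZMod 3) + ![2, 0] - ![0, 1] = ![1, 2] by decide +kernel, e] at h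
        apply hcne.1
        have hb'b' := mul_self (hT.1 _ b'.2)
        have hd : ¬ Commute (b' : G) a := by
          intro hcm
          exact (ln_pair hT hc a.2 b.2 hab (Or.inr (Or.inr rfl) : b' ∈ ln D (a : G) b) (Or.inl rfl) hb'a).1 hcm
        rw [show (c : G) = (b' : G) * ((b' : G) * c * b') * b' by
            rw [show (b' : G) * ((b' : G) * c * b') * b' = (b' * b') * c * (b' * b') by group, hb'b', one_mul, mul_one],
          h, braid_of_not_commute hT b'.2 a.2 hd, show (b' : G) = a * b * a from hz,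
          show (a : G) * (a * b * a) * a = (a * a) * b * (a * a) by group, haa, one_mul, mul_one]
      have hcases : ∀ v : Fin 2 → ZMod 3, v = 0 ∨ v = ![1, 0] ∨ -v = ![1, 0] ∨ v = ![0, 1] ∨ -v = ![0, 1] ∨
          v = ![2, 2] ∨ -v = ![2, 2] ∨ v = ![1, 2] ∨ -v = ![1, 2] := by decide +kernel
      rcases hcases v with e | e | e | e | e | e | e | e | e
      · exact e
      · exact absurd ((hv.symm.trans (by rw [e, p10]))) hab'
      · exact absurd ((hv2.symm.trans (by rw [e, p10]))) hab'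
      · exact absurd ((hv.symm.trans (by rw [e, p01]))) hac'
      · exact absurd ((hv2.symm.trans (by rw [e, p01]))) hac'
      · exact (h22 (e ▸ hv)).elim
      · exact (h22 (e ▸ hv2)).elim
      · exact (h12 (e ▸ hv)).elim
      · exact (h12 (e ▸ hv2)).elim
    let f : (Fin 2 → ZMod 3) → D := fun u => ⟨p u, hmem u⟩
    have hf : Function.Injective f := fun u w e => sub_eq_zero.mp (hK _ (psub u w (congrArg Subtype.val e)))
    have hnc : ∀ u w, u ≠ w → ¬ Commute (p u) (p w) := by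
      intro u w huw hcm
      have h := pline u w
      rw [hcm.eq, mul_assoc, mul_self (hT.1 _ (hmem u)), mul_one] at h
      have e := hf (Subtype.ext h : f w = f (u + u - w))
      have : ∀ u w : Fin 2 → ZMod 3, w = u + u - w → u = w := by decide +kernel
      exact huw (this u w e)
    have H1 : ∀ k ∈ affinePlaneThree, f '' k ∈ threeTranspositionLines D := by
      rintro _ ⟨v, w, hw, rfl⟩
      refine ⟨f v, f (v + w), hnc v _ (fun e => hw (left_eq_add.mp e)), Set.ext fun r => ?_⟩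
      have e3 : (f (v + w) : G) * f v * (f (v + w) : G)⁻¹ = p (v + (2 : ZMod 3) • w) := by
        show p (v + w) * p v * (p (v + w))⁻¹ = _
        rw [inv_eq (hT.1 _ (hmem _)), pline]
        congr 1
        rw [two_smul]; abel
      constructor
      · rintro ⟨_, ⟨k, rfl⟩, rfl⟩
        have hk3 : k = 0 ∨ k = 1 ∨ k = 2 := by revert k; decide
        rcases hk3 with rfl | rfl | rfl
        · exact Or.inl (by simp [f])
        · exact Or.inr (Or.inl (by simp [f]))
        · exact Or.inr (Or.inr (by rw [e3]))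
      · rintro (e | e | e)
        · exact ⟨v, ⟨0, by simp⟩, Subtype.ext e.symm⟩
        · exact ⟨v + w, ⟨1, by simp⟩, Subtype.ext e.symm⟩
        · exact ⟨v + (2 : ZMod 3) • w, ⟨2, rfl⟩, Subtype.ext (e.trans e3).symm⟩
    have H2 : ∀ u w, u ≠ w → ∀ k ∈ threeTranspositionLines D, f u ∈ k → f w ∈ k →
        ∃ j ∈ affinePlaneThree, u ∈ j ∧ w ∈ j := fun u w huw k _ _ _ =>
      ⟨_, ⟨u, w - u, sub_ne_zero.mpr (Ne.symm huw), rfl⟩, ⟨0, by simp⟩, ⟨1, by simp⟩⟩
    have fa : f 0 = a := Subtype.ext p0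
    have fb : f ![1, 0] = b := Subtype.ext p10
    have fc : f ![0, 1] = c := Subtype.ext p01
    have hl'' : l ⊆ Set.range f := by
      rw [hl']
      rintro w (e | e | e)
      · exact ⟨0, fa.trans (Subtype.ext e).symm⟩
      · exact ⟨_, fb.trans (Subtype.ext e).symm⟩
      · exact ⟨![2, 0], Subtype.ext (p20.trans e.symm)⟩
    have hm'' : m ⊆ Set.range f := by
      rw [hm']
      rintro w (e | e | e)
      · exact ⟨0, fa.trans (Subtype.ext e).symm⟩
      · exact ⟨_, fc.trans (Subtype.ext e).symm⟩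
      · refine ⟨![0, 1] + ![0, 1] - 0, Subtype.ext (?_ : p _ = _)⟩
        rw [← pline, p01, p0, e, inv_eq (hT.1 _ c.2)]
    refine plane_iso hpl hcard f hf H1 H2 hl'' hm'' ?_
    intro T hT' hsub
    have step : ∀ u w, u ≠ w → f u ∈ T → f w ∈ T → f (-u - w) ∈ T := by
      intro u w huw hu hw
      refine hsub _ (H1 _ ⟨u, w - u, sub_ne_zero.mpr (Ne.symm huw), rfl⟩) _ hu _ hw (fun e => huw (hf e))
        ⟨u, ⟨0, by simp⟩, rfl⟩ ⟨w, ⟨1, by simp⟩, rfl⟩ ⟨_, ⟨2, ?_⟩, rfl⟩
      exact ((by decide +kernel : ∀ u w : Fin 2 → ZMod 3, -u - w = u + (2 : ZMod 3) • (w - u)) u w)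
    have m00 : f 0 ∈ T := hT' (Or.inl (fa ▸ hal))
    have m10 : f ![1, 0] ∈ T := hT' (Or.inl (fb ▸ hbl))
    have m01 : f ![0, 1] ∈ T := hT' (Or.inr (fc ▸ hcm))
    have m20 := step _ _ (by decide +kernel) m00 m10
    have m02 := step _ _ (by decide +kernel) m00 m01
    have m22 := step _ _ (by decide +kernel) m10 m01
    have m11 := step _ _ (by decide +kernel) m00 m22
    have m12 := step _ _ (by decide +kernel) m20 m01
    have m21 := step _ _ (by decide +kernel) m00 m12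
    have hcov : ∀ r : Fin 2 → ZMod 3, r = 0 ∨ r = ![1, 0] ∨ r = ![0, 1] ∨ r = -0 - ![1, 0] ∨ r = -0 - ![0, 1] ∨
        r = -![1, 0] - ![0, 1] ∨ r = -0 - (-![1, 0] - ![0, 1]) ∨ r = -(-0 - ![1, 0]) - ![0, 1] ∨
        r = -0 - (-(-0 - ![1, 0]) - ![0, 1]) := by decide +kernel
    rintro _ ⟨r, rfl⟩
    rcases hcov r with e | e | e | e | e | e | e | e | e <;> rw [e] <;> assumption

end lines

end Cfsg.Agent.Lib.ThreeTransp.Fischer
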