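import Cfsg.Prelude.Def_FischerSpaces

/-! The involutions of a Fischer space. -/
set_option autoImplicit false

namespace Cfsg.Agent.Lib.ThreeTransp.LineMap

open Cfsg Cfsg.LineSystem

/-- A reflection map on a model of a plane. -/
structure Refl {P : Type*} (M : Set (Set P)) (tm : P → P → P) : Prop where
  third : ∀ m ∈ M, ∀ p ∈ m, ∀ q ∈ m, p ≠ q → tm p q ∈ m ∧ tm p q ≠ p ∧ tm p q ≠ q
  fix : ∀ p q, (∀ m ∈ M, p ∈ m → q ∈ m → p = q) → tm p q = q
  lines : ∀ p, ∀ m ∈ M, tm p '' m ∈ M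

def tmA (p q : Fin 2 → ZMod 3) : Fin 2 → ZMod 3 := -p - q

theorem refl_affine : Refl affinePlaneThree tmA := by
  refine ⟨?_, ?_, ?_⟩
  · rintro _ ⟨v, w, hw, rfl⟩ _ ⟨i, rfl⟩ _ ⟨j, rfl⟩ hne
    have hij : i ≠ j := fun e => hne (by rw [e])
    refine ⟨⟨-i - j, ?_⟩, ?_, ?_⟩
    · revert v w i j; decide +kernel
    · revert v w i j; decide +kernel
    · revert v w i j; decide +kernel
  · intro p q h
    have he : p = q := by
      by_contra hne
      exact hne (h _ ⟨p, q - p, sub_ne_zero.mpr (Ne.symm hne), rfl⟩ ⟨0, by simp⟩ ⟨1, by simp⟩)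
    subst he
    exact (by decide +kernel : ∀ p : Fin 2 → ZMod 3, tmA p p = p) p
  · rintro p _ ⟨v, w, hw, rfl⟩
    refine ⟨-p - v, -w, neg_ne_zero.mpr hw, Set.ext fun x => ⟨?_, ?_⟩⟩
    · rintro ⟨_, ⟨c, rfl⟩, rfl⟩
      exact ⟨c, by simp only [tmA, smul_neg]; abel⟩
    · rintro ⟨c, rfl⟩
      exact ⟨_, ⟨c, rfl⟩, by simp only [tmA, smul_neg]; abel⟩

/-- The reflection of the dual affine plane: the transposition acts on pairs. -/
def tmD (p q : DualAffinePoint) : DualAffinePoint :=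
  if h : ((p.val ∪ q.val) \ (p.val ∩ q.val)).card = 2 then ⟨_, h⟩ else q

set_option synthInstance.maxHeartbeats 200000 in
set_option synthInstance.maxSize 512 in
theorem tmD_third (p : DualAffinePoint) : ∀ q : DualAffinePoint, ∀ i : Fin 4,
    i ∉ p.val → i ∉ q.val → p ≠ q → i ∉ (tmD p q).val ∧ tmD p q ≠ p ∧ tmD p q ≠ q := by
  revert p; decide +kernel

theorem tmD_fix : ∀ p q : DualAffinePoint, tmD p q = q ∨ ∃ i : Fin 4, (decide (i ∉ p.val ∧ i ∉ q.val ∧ p ≠ q)) = true := by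
  decide +kernel

theorem tmD_lines : ∀ p : DualAffinePoint, ∀ i : Fin 4, ∃ j : Fin 4,
    (∀ q : DualAffinePoint, i ∉ q.val → j ∉ (tmD p q).val) ∧
    (∀ r : DualAffinePoint, j ∉ r.val → ∃ q : DualAffinePoint, i ∉ q.val ∧ tmD p q = r) := by
  decide +kernel

theorem refl_dual : Refl dualAffinePlaneTwo tmD := by
  refine ⟨?_, ?_, ?_⟩
  · rintro _ ⟨i, rfl⟩ p hp q hq hne
    exact tmD_third p q i hp hq hne
  · intro p q h
    rcases tmD_fix p q with e | ⟨i, hi⟩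
    · exact e
    · obtain ⟨hp, hq, hne⟩ := of_decide_eq_true hi
      exact absurd (h _ ⟨i, rfl⟩ hp hq) hne
  · rintro p _ ⟨i, rfl⟩
    obtain ⟨j, h1, h2⟩ := tmD_lines p i
    refine ⟨j, Set.ext fun r => ⟨?_, fun hr => ?_⟩⟩
    · rintro ⟨q, hq, rfl⟩; exact h1 q hq
    · obtain ⟨q, hq, e⟩ := h2 r hr; exact ⟨q, hq, e⟩

variable {X : Type*} {L : Set (Set X)} (hL : IsFischerSpace L)

include hL in
theorem lineMap_eq {x y : X} {l : Set X} (hl : l ∈ L) (hx : x ∈ l) (hy : y ∈ l) (hxy : x ≠ y) :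
    lineMap L x y ∈ l ∧ lineMap L x y ≠ x ∧ lineMap L x y ≠ y ∧ l = {x, y, lineMap L x y} := by
  obtain ⟨z, hz, hzx, hzy⟩ : ∃ z ∈ l, z ≠ x ∧ z ≠ y := by
    by_contra h
    push Not at h
    have hsub : l ⊆ {x, y} := fun z hz => by
      by_cases e : z = x
      · exact Or.inl e
      · exact Or.inr (h z hz e)
    have := Set.ncard_le_ncard hsub
    rw [hL.2.1 l hl, Set.ncard_pair hxy] at this
    omega
  have hfin : l.Finite := Set.finite_of_ncard_ne_zero (by rw [hL.2.1 l hl]; omega)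
  have el : l = {x, y, z} := by
    refine (Set.eq_of_subset_of_ncard_le ?_ ?_ hfin).symm
    · intro w hw
      rcases hw with rfl | rfl | rfl <;> assumption
    · rw [hL.2.1 l hl, Set.ncard_eq_three.mpr ⟨x, y, z, hxy, hzx.symm, hzy.symm, rfl⟩]
  have hex : ∃ z : X, z ≠ x ∧ z ≠ y ∧ x ≠ y ∧ ({x, y, z} : Set X) ∈ L := ⟨z, hzx, hzy, hxy, el ▸ hl⟩
  have hch : lineMap L x y = hex.choose := by
    simp only [lineMap]
    rw [dif_pos hex]
  obtain ⟨h1, h2, -, h4⟩ := hex.choose_spec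
  have e2 : ({x, y, hex.choose} : Set X) = l :=
    hL.1 _ h4 l hl x y hxy (Or.inl rfl) (Or.inr (Or.inl rfl)) hx hy
  rw [hch]
  exact ⟨e2 ▸ Or.inr (Or.inr rfl), h1, h2, e2.symm⟩

theorem lineMap_fix {x y : X} (h : ∀ l ∈ L, x ∈ l → y ∈ l → x = y) : lineMap L x y = y := by
  simp only [lineMap]
  rw [dif_neg]
  rintro ⟨z, -, -, hxy, hmem⟩
  exact hxy (h _ hmem (Or.inl rfl) (Or.inr (Or.inl rfl)))

theorem lineMap_self (x : X) : lineMap L x x = x := lineMap_fix fun _ _ _ _ => rfl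

include hL in
theorem lineMap_lineMap (x y : X) : lineMap L x (lineMap L x y) = y := by
  by_cases h : ∀ l ∈ L, x ∈ l → y ∈ l → x = y
  · rw [lineMap_fix h, lineMap_fix h]
  push Not at h
  obtain ⟨l, hl, hx, hy, hxy⟩ := h
  obtain ⟨h1, h2, h3, el⟩ := lineMap_eq hL hl hx hy hxy
  obtain ⟨g1, g2, g3, -⟩ := lineMap_eq hL hl hx h1 (Ne.symm h2)
  rw [el] at g1
  rcases g1 with e | e | e
  · exact absurd e g2
  · exact e
  · exact absurd e g3

theorem subset_span (S : Set X) : S ⊆ span L S := fun _ hx _ hT => hT.1 hx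

theorem span_subspace (S : Set X) : IsSubspace L (span L S) := fun l hl x hx y hy hne hxl hyl z hz T hT =>
  hT.2 l hl x (hx T hT) y (hy T hT) hne hxl hyl hz

include hL in
/-- Inside a plane the map is the reflection of the model. -/
theorem lineMap_plane {P : Type*} {M : Set (Set P)} {tm : P → P → P} (hR : Refl M tm) {S : Set X}
    (hS : IsSubspace L S) {e : S ≃ P} (he : IsIso (restrict L S) M e) {x : X} (hx : x ∈ S) {l : Set X} (hl : l ∈ L)
    (hlS : l ⊆ S) : lineMap L x '' l ∈ L := by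
  have hmem : ∀ q : S, ∃ hq : lineMap L x q ∈ S, e ⟨_, hq⟩ = tm (e ⟨x, hx⟩) (e q) := by
    intro q
    by_cases h : ∀ k ∈ L, x ∈ k → (q : X) ∈ k → x = q
    · refine ⟨by rw [lineMap_fix h]; exact q.2, ?_⟩
      have e1 : (⟨lineMap L x q, by rw [lineMap_fix h]; exact q.2⟩ : S) = q := Subtype.ext (lineMap_fix h)
      rw [e1]
      refine (hR.fix _ _ fun m hm hp hq => ?_).symm
      have hs : e '' (e.symm '' m) ∈ M := by rwa [Equiv.image_symm_image]
      obtain ⟨k, hk, -, hkeq⟩ := (he _).mpr hs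
      have hx' : (⟨x, hx⟩ : S) ∈ e.symm '' m := ⟨_, hp, e.symm_apply_apply _⟩
      have hq' : q ∈ e.symm '' m := ⟨_, hq, e.symm_apply_apply _⟩
      rw [hkeq] at hx' hq'
      exact congrArg e (Subtype.ext (h k hk hx' hq') : (⟨x, hx⟩ : S) = q)
    push Not at h
    obtain ⟨k, hk, hxk, hqk, hne⟩ := h
    have hkS : k ⊆ S := hS k hk x hx q q.2 hne hxk hqk
    obtain ⟨h1, h2, h3, ek⟩ := lineMap_eq hL hk hxk hqk hne
    refine ⟨hkS h1, ?_⟩
    have hm : e '' {s : S | (s : X) ∈ k} ∈ M := (he _).mp ⟨k, hk, hkS, rfl⟩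
    have hne' : e ⟨x, hx⟩ ≠ e q := fun h => hne (congrArg Subtype.val (e.injective h))
    obtain ⟨t1, t2, t3⟩ := hR.third _ hm (e ⟨x, hx⟩) ⟨_, hxk, rfl⟩ (e q) ⟨_, hqk, rfl⟩ hne'
    obtain ⟨s, hs, es⟩ := t1
    rw [← es]
    congr 1
    apply Subtype.ext
    have hs' : (s : X) ∈ ({x, (q : X), lineMap L x q} : Set X) := ek ▸ hs
    rcases hs' with e' | e' | e'
    · exact absurd (es.symm.trans (congrArg e (Subtype.ext e'))) t2
    · exact absurd (es.symm.trans (congrArg e (Subtype.ext e'))) t3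
    · exact e'.symm
  have hm : e '' {s : S | (s : X) ∈ l} ∈ M := (he _).mp ⟨l, hl, hlS, rfl⟩
  have h := hR.lines (e ⟨x, hx⟩) _ hm
  have h' : e '' (e.symm '' (tm (e ⟨x, hx⟩) '' (e '' {s : S | (s : X) ∈ l}))) ∈ M := by rwa [Equiv.image_symm_image]
  obtain ⟨k, hk, hkS, hkeq⟩ := (he _).mpr h'
  convert hk using 1
  ext z
  constructor
  · rintro ⟨y, hy, rfl⟩
    obtain ⟨hq, eq⟩ := hmem ⟨y, hlS hy⟩
    have : (⟨_, hq⟩ : S) ∈ e.symm '' (tm (e ⟨x, hx⟩) '' (e '' {s : S | (s : X) ∈ l})) :=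
      ⟨_, ⟨_, ⟨⟨y, hlS hy⟩, hy, rfl⟩, rfl⟩, by rw [← eq, Equiv.symm_apply_apply]⟩
    rw [hkeq] at this
    exact this
  · intro hz
    have : (⟨z, hkS hz⟩ : S) ∈ e.symm '' (tm (e ⟨x, hx⟩) '' (e '' {s : S | (s : X) ∈ l})) := by rw [hkeq]; exact hz
    obtain ⟨_, ⟨_, ⟨y, hy, rfl⟩, rfl⟩, ez⟩ := this
    obtain ⟨hq, eq⟩ := hmem y
    rw [← eq, Equiv.symm_apply_apply] at ez
    exact ⟨y, hy, congrArg Subtype.val ez⟩

include hL in
theorem lineMap_lines (x : X) {l : Set X} (hl : l ∈ L) : lineMap L x '' l ∈ L := by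
  by_cases hxl : x ∈ l
  · convert hl using 1
    refine Set.Subset.antisymm ?_ fun y hy => ⟨lineMap L x y, ?_, lineMap_lineMap hL x y⟩
    · rintro _ ⟨y, hy, rfl⟩
      by_cases h : x = y
      · subst h; rwa [lineMap_self]
      · exact (lineMap_eq hL hl hxl hy h).1
    · by_cases h : x = y
      · subst h; rwa [lineMap_self]
      · exact (lineMap_eq hL hl hxl hy h).1
  by_cases h : ∃ y ∈ l, ∃ m ∈ L, x ∈ m ∧ y ∈ m
  · obtain ⟨y, hy, m, hm, hxm, hym⟩ := h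
    have hne : l ≠ m := fun e => hxl (e ▸ hxm)
    have hx : x ∈ span L (l ∪ m) := subset_span _ (Or.inr hxm)
    have hlS : l ⊆ span L (l ∪ m) := fun z hz => subset_span _ (Or.inl hz)
    rcases hL.2.2 l hl m hm hne ⟨y, hy, hym⟩ with ⟨e, he⟩ | ⟨e, he⟩
    · exact lineMap_plane hL refl_dual (span_subspace _) he hx hl hlS
    · exact lineMap_plane hL refl_affine (span_subspace _) he hx hl hlS
  · push Not at h
    have hfix : ∀ y ∈ l, lineMap L x y = y := fun y hy => lineMap_fix fun m hm hxm hym => absurd hym (h y hy m hm hxm)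
    convert hl using 1
    exact Set.ext fun z => ⟨fun ⟨y, hy, e⟩ => e ▸ (hfix y hy).symm ▸ hy, fun hz => ⟨z, hz, hfix z hz⟩⟩

end Cfsg.Agent.Lib.ThreeTransp.LineMap
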