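import Cfsg.Agent.Lib.Involution.FischerGroup
import Cfsg.Agent.Lib.ThreeTransp.Twins

/-! Partner pairs of commuting members: the commuting graph has no triangles and valency three. -/
set_option autoImplicit false

namespace Cfsg.Agent.Lib.ThreeTransp.OddTwin

open Cfsg Cfsg.Agent.Lib.ThreeTransp
open Cfsg.Agent.Lib.Involution.FischerLocal (cjc fix conj2_mem)

variable {G : Type*} [Group G] {D : Set G}

theorem dbl {g : G} (hg : g * g = 1) (u : G) : g * (g * u * g) * g = u := by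
  rw [show g * (g * u * g) * g = (g * g) * u * (g * g) by group, hg, one_mul, mul_one]

theorem flip_iff {g : G} (hg : g * g = 1) {a b : G} : g * a * g = b ↔ a = g * b * g :=
  ⟨fun h => by rw [← h, dbl hg], fun h => by rw [h, dbl hg]⟩

theorem cswap {g k : G} (h : Commute g k) (u : G) : g * (k * u * k) * g = k * (g * u * g) * k := by
  calc g * (k * u * k) * g = (g * k) * u * (k * g) := by group
    _ = (k * g) * u * (g * k) := by rw [h.eq]
    _ = _ := by group

theorem nc_self {a b : G} (ha : a * a = 1) (h : ¬ Commute a b) : ¬ Commute a (a * b * a) := by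
  intro e
  have e' := (cjc ha).2 e
  rw [fix ha (Commute.refl a)] at e'
  exact h e'

/-- `p` is a partner of `y` among the members commuting with `x`. -/
def Partner (D : Set G) (x y p : G) : Prop :=
  y ∈ Oth D x ∧ p ∈ Oth D x ∧ ¬ Commute y p ∧ ∀ v ∈ Oth D x, v ≠ y → v ≠ p → (Commute y v ↔ Commute p v)

variable (hT : IsThreeTranspositionSet D) (hc : ∀ g : G, ∀ d ∈ D, g * d * g⁻¹ ∈ D)

include hT hc in
theorem common_commute {x y p v u : G} (hx : x ∈ D) (hP : Partner D x y p) (hv : v ∈ Oth D y) (hpv : ¬ Commute p v)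
    (hu : u ∈ Oth D x) (hu' : u ∈ Oth D y) : Commute u v := by
  obtain ⟨⟨hyD, hyx, cxy⟩, ⟨hpD, hpx, cxp⟩, nyp, hiff⟩ := hP
  obtain ⟨hvD, hvy, cyv⟩ := hv
  have hvx : ¬ Commute v x := by
    intro h
    have hne : v ≠ x := fun e => hpv (e ▸ cxp.symm)
    exact hpv ((hiff v ⟨hvD, hne, h.symm⟩ hvy fun e => nyp (e ▸ cyv)).1 cyv)
  have hup : u ≠ p := fun e => nyp (e ▸ hu'.2.2)
  have cpu : Commute p u := (hiff u hu hu'.2.1 hup).1 hu'.2.2
  by_contra huv
  have xx := mul_self (hT.1 x hx)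
  have yy := mul_self (hT.1 y hyD)
  have pp := mul_self (hT.1 p hpD)
  have vv := mul_self (hT.1 v hvD)
  have bvx := braid_of_not_commute hT hvD hx hvx
  have bvp := braid_of_not_commute hT hvD hpD fun h => hpv h.symm
  have byp := braid_of_not_commute hT hyD hpD nyp
  obtain ⟨e, he⟩ : ∃ e, e = p * (y * (v * (p * (x * (v * u * v) * x) * p) * v) * y) * p := ⟨_, rfl⟩
  have heD : e ∈ D := he ▸ conj2_mem hT hc hpD (conj2_mem hT hc hyD (conj2_mem hT hc hvD
    (conj2_mem hT hc hpD (conj2_mem hT hc hx (conj2_mem hT hc hvD hu.1)))))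
  have cex : Commute e x := by
    rw [he, cjc pp, fix pp cxp.symm, cjc yy, fix yy cxy.symm, cjc vv, bvx, cjc pp, cswap cxp.symm, cjc xx,
      dbl xx, ← bvp, cjc vv, dbl vv]
    exact cpu.symm
  have cey : Commute e y := by
    rw [he, cjc pp, ← byp, cjc yy, dbl yy, cjc vv, bvp, cjc pp, dbl pp, cjc xx, ← bvx, cjc vv, dbl vv]
    exact hu.2.2.symm
  have hinv : p * (y * (p * v * p) * y) * p = y * (p * v * p) * y := by
    calc p * (y * (p * v * p) * y) * p = (p * y * p) * v * (p * y * p) := by group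
      _ = (y * p * y) * v * (y * p * y) := by rw [byp]
      _ = y * (p * (y * v * y) * p) * y := by group
      _ = _ := by rw [fix yy cyv]
  have nep : ¬ Commute e p := by
    intro h
    rw [he, cjc pp, fix pp (Commute.refl p), cjc yy, cjc vv, cswap cyv.symm, bvp, cjc pp, hinv, cjc xx,
      cswap cxy, cjc vv, cswap cyv.symm] at h
    have h1 : v * (x * (p * v * p) * x) * v = x * (p * v * p) * x := by
      rw [← cswap cxp.symm, ← bvx, show v * (p * (v * x * v) * p) * v = (v * p * v) * x * (v * p * v) by group, bvp,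
        show p * v * p * x * (p * v * p) = p * (v * (p * x * p) * v) * p by group, fix pp cxp.symm]
    rw [h1] at h
    have h2 := (cjc yy).2 h
    rw [fix yy hu'.2.2] at h2
    have h3 := (cjc xx).2 h2
    rw [fix xx hu.2.2] at h3
    have h4 := (cjc pp).2 h3
    rw [fix pp cpu] at h4
    exact huv h4
  have hey : e ≠ y := by
    intro h
    rw [he, flip_iff pp, ← byp, flip_iff yy, dbl yy, flip_iff vv, bvp, flip_iff pp, dbl pp, flip_iff xx, ← bvx,
      flip_iff vv, dbl vv] at h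
    exact hu.2.1 h
  have hex : e ≠ x := fun h => nep (h ▸ cxp)
  exact nep ((hiff e ⟨heD, hex, cex.symm⟩ hey fun h => nep (h ▸ Commute.refl p)).1 cey.symm).symm

include hT hc in
/-- No two members commuting with `x` commute, given partners and separation. -/
theorem triangle_free (hpart : ∀ x ∈ D, ∀ y ∈ Oth D x, ∃ p, Partner D x y p)
    (hsep : ∀ a ∈ D, ∀ b ∈ D, a ≠ b → ∃ v ∈ Oth D a, v ∉ Oth D b)
    {x y z : G} (hx : x ∈ D) (hy : y ∈ Oth D x) (hz : z ∈ Oth D x) (hyz : y ≠ z) : ¬ Commute y z := by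
  intro cyz
  obtain ⟨p, hP⟩ := hpart x hx y hy
  have hzy : y ∈ Oth D z := ⟨hy.1, hyz, cyz.symm⟩
  obtain ⟨q, hQ⟩ := hpart z hz.1 y hzy
  have hz' : z ∈ Oth D y := ⟨hz.1, hyz.symm, cyz⟩
  have hx' : x ∈ Oth D y := ⟨hx, hy.2.1.symm, hy.2.2.symm⟩
  have hxz : x ∈ Oth D z := ⟨hx, hz.2.1.symm, hz.2.2.symm⟩
  obtain ⟨-, ⟨hpD, hpx, cxp⟩, nyp, hiff⟩ := id hP
  obtain ⟨-, ⟨hqD, hqz, czq⟩, nyq, hiff'⟩ := id hQ
  have hxq : x ≠ q := fun e => nyq (e ▸ hy.2.2.symm)
  have cqx : Commute q x := (hiff' x hxz hy.2.1.symm hxq).1 hy.2.2.symm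
  have hyne : y ≠ p := fun e => nyp (e ▸ Commute.refl y)
  have hyne' : y ≠ q := fun e => nyq (e ▸ Commute.refl y)
  obtain ⟨v, hv, hv'⟩ := hsep y hy.1 p hpD hyne
  obtain ⟨w, hw, hw'⟩ := hsep y hy.1 q hqD hyne'
  have npv : ¬ Commute p v := fun h => hv' ⟨hv.1, fun e => nyp (e ▸ hv.2.2), h⟩
  have nqw : ¬ Commute q w := fun h => hw' ⟨hw.1, fun e => nyq (e ▸ hw.2.2), h⟩
  have czv : Commute z v := common_commute hT hc hx hP hv npv hz hz'
  have cxw : Commute x w := common_commute hT hc hz.1 hQ hw nqw hxz hx'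
  have hwx : w ≠ x := fun e => nqw (e ▸ cqx)
  have hwD : w ∈ Oth D x := ⟨hw.1, hwx, cxw⟩
  have cpw : Commute p w := (hiff w hwD hw.2.1 fun e => nyp (e ▸ hw.2.2)).1 hw.2.2
  have cwv : Commute w v := common_commute hT hc hx hP hv npv hwD hw
  have hvz : v ≠ z := by
    intro e
    subst e
    exact npv ((hiff v hz hv.2.1 fun e => nyp (e ▸ hv.2.2)).1 hv.2.2)
  have cqv : Commute q v :=
    (hiff' v ⟨hv.1, hvz, czv⟩ hv.2.1 fun e => nyq (e ▸ hv.2.2)).1 hv.2.2
  have hqD' : q ∈ Oth D x := ⟨hqD, hxq.symm, cqx.symm⟩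
  have hqp : q ≠ p := fun e => npv (e ▸ cqv)
  have npq : ¬ Commute p q := fun h => nyq ((hiff q hqD' hyne'.symm hqp).2 h)
  have nvx : ¬ Commute v x := by
    intro h
    have hne : v ≠ x := fun e => npv (e ▸ cxp.symm)
    exact npv ((hiff v ⟨hv.1, hne, h.symm⟩ hv.2.1 fun e => nyp (e ▸ hv.2.2)).1 hv.2.2)
  have cxy := hy.2.2
  have cyv := hv.2.2
  have cyw := hw.2.2
  have xx := mul_self (hT.1 x hx)
  have yy := mul_self (hT.1 y hy.1)
  have pp := mul_self (hT.1 p hpD)
  have qq := mul_self (hT.1 q hqD)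
  have vv := mul_self (hT.1 v hv.1)
  have ww := mul_self (hT.1 w hw.1)
  have bvx := braid_of_not_commute hT hv.1 hx nvx
  have bvp := braid_of_not_commute hT hv.1 hpD fun h => npv h.symm
  have byp := braid_of_not_commute hT hy.1 hpD nyp
  have byq := braid_of_not_commute hT hy.1 hqD nyq
  have bwq := braid_of_not_commute hT hw.1 hqD fun h => nqw h.symm
  have bpq := braid_of_not_commute hT hpD hqD npq
  -- the conjugate of `y` by `q` does not commute with `p`
  have hs : ¬ Commute (q * y * q) p := by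
    intro h
    have h1 := (cjc qq).1 h
    have hn : ¬ Commute p (q * p * q) := by rw [← bpq]; exact nc_self pp npq
    have hne : q * p * q ≠ x := fun e => hn (e ▸ cxp.symm)
    have hney : q * p * q ≠ y := by
      intro e
      rw [flip_iff qq] at e
      rw [e] at npv
      exact npv ((cqv.mul_left cyv).mul_left cqv)
    have hnep : q * p * q ≠ p := fun e => hn (by rw [e])
    exact hn ((hiff _ ⟨conj2_mem hT hc hqD hpD, hne, (cqx.symm.mul_right cxp).mul_right cqx.symm⟩ hney hnep).1 h1)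
  obtain ⟨r, hr⟩ : ∃ r, r = q * y * q := ⟨_, rfl⟩
  obtain ⟨g, hg⟩ : ∃ g, g = p * r * p := ⟨_, rfl⟩
  obtain ⟨t, ht⟩ : ∃ t, t = q * (p * y * p) * q := ⟨_, rfl⟩
  rw [← hr] at hs
  have hrD : r ∈ D := hr ▸ conj2_mem hT hc hqD hy.1
  have hgD : g ∈ D := hg ▸ conj2_mem hT hc hpD hrD
  have htD : t ∈ D := ht ▸ conj2_mem hT hc hqD (conj2_mem hT hc hpD hy.1)
  have crx : Commute r x := hr ▸ (cqx.mul_left cxy.symm).mul_left cqx
  have crv : Commute r v := hr ▸ (cqv.mul_left cyv).mul_left cqv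
  have hyr : y * r * y = q := by rw [hr, ← byq, dbl yy]
  have ngv : ¬ Commute g v := by
    rw [hg, cjc pp, ← bvp]
    intro h
    have h1 := (cjc vv).2 h
    rw [fix vv crv.symm] at h1
    exact hs h1
  have ngy : ¬ Commute g y := by
    rw [hg, cjc pp, ← byp]
    intro h
    have h1 := (cjc yy).2 h
    rw [hyr] at h1
    exact npq h1.symm
  have nrw : ¬ Commute r w := by
    rw [hr, cjc qq, ← bwq]
    intro h
    have h1 := (cjc ww).2 h
    rw [fix ww cyw.symm] at h1
    exact nyq h1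
  have ngw : ¬ Commute g w := by rw [hg, cjc pp, fix pp cpw]; exact nrw
  have htg : t = y * g * y := by
    have n1 : ¬ Commute q (p * y * p) := by
      intro h
      have h1 := (cjc pp).2 h
      rw [bpq] at h1
      exact hs (hr ▸ ((cjc qq).1 h1).symm)
    have hb := braid_of_not_commute hT hqD (conj2_mem hT hc hpD hy.1) n1
    rw [ht, hb, ← byp, show y * g * y = (y * p * y) * (y * r * y) * (y * p * y) by
      rw [hg, show (y * p * y) * (y * r * y) * (y * p * y) = y * (p * (y * y) * r * (y * y) * p) * y by group, yy,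
        mul_one, mul_one], hyr]
  have htg' : t = g * y * g := by rw [htg, braid_of_not_commute hT hy.1 hgD fun h => ngy h.symm]
  have ntw : ¬ Commute t w := by rw [htg, cjc yy, fix yy cyw]; exact ngw
  have cxt : Commute x t := ht ▸ (cqx.symm.mul_right ((cxp.mul_right cxy).mul_right cxp)).mul_right cqx.symm
  obtain ⟨e, he⟩ : ∃ e, e = v * (p * (q * (w * (x * (v * g * v) * x) * w) * q) * p) * v := ⟨_, rfl⟩
  have heD : e ∈ D := he ▸ conj2_mem hT hc hv.1 (conj2_mem hT hc hpD (conj2_mem hT hc hqD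
    (conj2_mem hT hc hw.1 (conj2_mem hT hc hx (conj2_mem hT hc hv.1 hgD)))))
  have cex : Commute e x := by
    rw [he, cjc vv, bvx, cjc pp, cswap cxp.symm, cjc qq, cswap cqx, cjc ww, cswap cxw.symm, cjc xx, dbl xx, cjc vv,
      cswap cwv.symm, cswap cqv.symm, ← bvp, dbl vv, hg, cjc pp, cswap cpw, ← bpq, dbl pp, bwq, hr, cjc qq, dbl qq]
    exact cyw
  have cep : Commute e p := by
    rw [he, cjc vv, bvp, cjc pp, dbl pp, cjc qq, fix qq cqv, cjc ww, fix ww cwv, cjc xx, ← bvx, cjc vv, dbl vv, hg,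
      cjc pp, fix pp cxp.symm]
    exact crx
  have ney : ¬ Commute e y := by
    intro h
    rw [he, cjc vv, fix vv cyv.symm, cjc pp, cjc qq, ← ht, cjc ww, cjc xx,
      fix xx ((cxw.mul_right cxt).mul_right cxw), braid_of_not_commute hT hv.1 hgD fun h => ngv h.symm,
      braid_of_not_commute hT hw.1 htD fun h => ntw h.symm, cjc (mul_self (hT.1 g hgD))] at h
    have hgg := mul_self (hT.1 g hgD)
    have h1 : g * (t * w * t) * g = y * (g * w * g) * y := by
      rw [htg', show g * (g * y * g * w * (g * y * g)) * g = (g * g) * y * (g * w * g) * y * (g * g) by group,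
        hgg, one_mul, mul_one]
    rw [h1] at h
    have h2 := (cjc yy).2 h
    rw [fix yy cyv, braid_of_not_commute hT hgD hw.1 ngw] at h2
    have h3 := (cjc ww).2 h2
    rw [fix ww cwv] at h3
    exact ngv h3.symm
  have hep : e ≠ p := by
    intro h
    rw [he, flip_iff vv, bvp, flip_iff pp, dbl pp, flip_iff qq, fix qq cqv, flip_iff ww, fix ww cwv, flip_iff xx,
      ← bvx, flip_iff vv, dbl vv, hg, flip_iff pp, fix pp cxp.symm, hr, flip_iff qq, fix qq cqx] at h
    exact hy.2.1 h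
  exact ney ((hiff e ⟨heD, fun h => ney (h ▸ cxy), cex.symm⟩ (fun h => ney (h ▸ Commute.refl y)) hep).2
    cep.symm).symm

end Cfsg.Agent.Lib.ThreeTransp.OddTwin
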