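import Cfsg.Agent.Lib.ThreeTransp.OddTwin

/-! Without triangles the valency of the commuting graph is at most three. -/
set_option autoImplicit false

namespace Cfsg.Agent.Lib.ThreeTransp.OddTwin

open Cfsg Cfsg.Agent.Lib.ThreeTransp
open Cfsg.Agent.Lib.Involution.FischerLocal (cjc fix conj2_mem)

variable {G : Type*} [Group G] {D : Set G}

/-- The members commuting with both of two members. -/
abbrev Com (D : Set G) (a b : G) : Set G := Oth D a ∩ Oth D b

variable (hT : IsThreeTranspositionSet D) (hc : ∀ g : G, ∀ d ∈ D, g * d * g⁻¹ ∈ D)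

include hT hc in
theorem oth_closed {x a b : G} (ha : a ∈ Oth D x) (hb : b ∈ Oth D x) : a * b * a ∈ Oth D x := by
  have aa := mul_self (hT.1 a ha.1)
  refine ⟨conj2_mem hT hc ha.1 hb.1, fun e => hb.2.1 ?_, (ha.2.2.mul_right hb.2.2).mul_right ha.2.2⟩
  rw [flip_iff aa, fix aa ha.2.2.symm] at e
  exact e

include hc in
theorem ncard_oth_eq [Finite G] (hconj : ∀ a ∈ D, ∀ b ∈ D, ∃ g : G, g * a * g⁻¹ = b) {a b : G} (ha : a ∈ D)
    (hb : b ∈ D) : (Oth D a).ncard = (Oth D b).ncard := by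
  obtain ⟨g, rfl⟩ := hconj a ha b hb
  have hset : Oth D (g * a * g⁻¹) = (MulAut.conj g).toMonoidHom '' Oth D a := by
    ext y
    rw [oth_conj hc]
    constructor
    · intro h; exact ⟨_, h, by simp [mul_assoc]⟩
    · rintro ⟨u, hu, rfl⟩; simpa [mul_assoc] using hu
  rw [hset, Set.ncard_image_of_injective _ (show Function.Injective (MulAut.conj g).toMonoidHom from (MulAut.conj g).injective)]

variable (htri : ∀ x ∈ D, ∀ a ∈ Oth D x, ∀ b ∈ Oth D x, a ≠ b → ¬ Commute a b)
  (hsep : ∀ a ∈ D, ∀ b ∈ D, a ≠ b → ∃ v ∈ Oth D a, v ∉ Oth D b)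

include hT hc htri in
/-- In the plane through a common member the common members are more than that member. -/
theorem plane_meets {x v y p r : G} (hx : x ∈ D) (hv : v ∈ D) (hy : y ∈ Com D x v) (hp : p ∈ Oth D x)
    (hr : r ∈ Oth D x) (hvp : ¬ Commute v p) (hvr : ¬ Commute v r) :
    Commute v (p * r * p) ∨ Commute v (y * p * y * r * (y * p * y)) := by
  obtain ⟨hyx, hyv⟩ := hy
  have yy := mul_self (hT.1 y hyx.1)
  have pp := mul_self (hT.1 p hp.1)
  have rr := mul_self (hT.1 r hr.1)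
  have vv := mul_self (hT.1 v hv)
  have cyv : Commute y v := hyv.2.2.symm
  have nyp : ¬ Commute y p := htri x hx y hyx p hp fun e => hvp (e ▸ cyv.symm)
  have nyr : ¬ Commute y r := htri x hx y hyx r hr fun e => hvr (e ▸ cyv.symm)
  have byp := braid_of_not_commute hT hyx.1 hp.1 nyp
  by_cases h1 : r = p
  · right
    rw [h1, byp, show p * y * p * p * (p * y * p) = p * y * (p * p) * (p * y * p) by group, pp, mul_one,
      show p * y * (p * y * p) = p * (y * p * y) * p by group, byp, dbl pp]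
    exact cyv.symm
  by_cases h2 : r = y * p * y
  · left
    rw [h2, byp, dbl pp]
    exact cyv.symm
  by_contra hno
  push Not at hno
  obtain ⟨hs', hq'⟩ := hno
  have npr : ¬ Commute p r := htri x hx p hp r hr fun e => h1 e.symm
  have np'r : ¬ Commute (y * p * y) r := htri x hx _ (oth_closed hT hc hyx hp) r hr fun e => h2 e.symm
  have hsD : p * r * p ∈ D := conj2_mem hT hc hp.1 hr.1
  obtain ⟨P, p0, p10, p01, pline, -, -⟩ := Planes.affine_points yy pp rr
    (cube_of_not_commute hT hyx.1 hp.1 nyp) (cube_of_not_commute hT hyx.1 hr.1 nyr)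
    (cube_of_not_commute hT hp.1 hr.1 npr)
    (cube_of_not_commute hT (conj2_mem hT hc hyx.1 hp.1) hr.1 np'r)
  obtain ⟨q, hq⟩ : ∃ q, q = r * (y * p * y) * r := ⟨_, rfl⟩
  have hqD : q ∈ D := hq ▸ conj2_mem hT hc hr.1 (conj2_mem hT hc hyx.1 hp.1)
  have hA : p * (r * (y * (p * (r * y * r) * p) * y) * r) * p = y := by
    rw [← p0, ← p10, ← p01]; simp only [pline]; congr 1; decide +kernel
  have hA2 : r * (y * r * y) * r = y := by
    rw [← p0, ← p01]; simp only [pline]; congr 1; decide +kernel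
  have hA4 : q * (y * r * y) * q = p * r * p := by
    rw [hq, ← p0, ← p10, ← p01]; simp only [pline]; congr 1; decide +kernel
  have hA5 : p * r * p * (q * p * q) * (p * r * p) = y := by
    rw [hq, ← p0, ← p10, ← p01]; simp only [pline]; congr 1; decide +kernel
  have hA6 : q = y * p * y * r * (y * p * y) := by
    rw [hq, ← p0, ← p10, ← p01]; simp only [pline]; congr 1; decide +kernel
  rw [← hA6] at hq'
  have qq := mul_self (hT.1 q hqD)
  have ss := mul_self (hT.1 _ hsD)
  have bvp := braid_of_not_commute hT hv hp.1 hvp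
  have bvr := braid_of_not_commute hT hv hr.1 hvr
  have bvq := braid_of_not_commute hT hv hqD hq'
  have bvs := braid_of_not_commute hT hv hsD hs'
  have nvr' : ¬ Commute v (y * r * y) := by
    intro h
    have h1 := (cjc yy).2 h
    rw [fix yy cyv] at h1
    exact hvr h1
  have bvr' := braid_of_not_commute hT hv (conj2_mem hT hc hyx.1 hr.1) nvr'
  have e1 : y * (p * (v * r * v) * p) * y = y * p * y * (v * (y * r * y) * v) * (y * p * y) := by
    rw [← cswap cyv r]
    calc y * (p * (v * r * v) * p) * y = y * p * (1 * (v * r * v) * 1) * p * y := by group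
      _ = y * p * (y * y * (v * r * v) * (y * y)) * p * y := by rw [yy]
      _ = _ := by group
  have e2 : r * (v * (y * r * y) * v) * r = v * (y * r * y) * v := by
    calc r * (v * (y * r * y) * v) * r = r * (y * r * y * v * (y * r * y)) * r := by rw [bvr']
      _ = r * (y * r * y) * 1 * v * 1 * (y * r * y) * r := by group
      _ = r * (y * r * y) * (r * r) * v * (r * r) * (y * r * y) * r := by rw [rr]
      _ = r * (y * r * y) * r * (r * v * r) * (r * (y * r * y) * r) := by group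
      _ = y * (v * r * v) * y := by rw [hA2, bvr]
      _ = _ := cswap cyv r
  have e3 : r * (y * p * y * (v * (y * r * y) * v) * (y * p * y)) * r = q * (v * (y * r * y) * v) * q := by
    calc r * (y * p * y * (v * (y * r * y) * v) * (y * p * y)) * r
        = r * (y * p * y) * 1 * (v * (y * r * y) * v) * 1 * (y * p * y) * r := by group
      _ = r * (y * p * y) * (r * r) * (v * (y * r * y) * v) * (r * r) * (y * p * y) * r := by rw [rr]
      _ = r * (y * p * y) * r * (r * (v * (y * r * y) * v) * r) * (r * (y * p * y) * r) := by group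
      _ = _ := by rw [e2, ← hq]
  have e4 : v * (q * (v * (y * r * y) * v) * q) * v = q * (v * (p * r * p) * v) * q := by
    calc v * (q * (v * (y * r * y) * v) * q) * v = v * q * v * (y * r * y) * (v * q * v) := by group
      _ = q * (v * (q * (y * r * y) * q) * v) * q := by rw [bvq]; group
      _ = _ := by rw [hA4]
  obtain ⟨h, hh⟩ : ∃ h, h = y * (r * (p * (y * (r * (p * v * p) * r) * y) * p) * r) * y := ⟨_, rfl⟩
  have hhD : h ∈ D := hh ▸ conj2_mem hT hc hyx.1 (conj2_mem hT hc hr.1 (conj2_mem hT hc hp.1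
    (conj2_mem hT hc hyx.1 (conj2_mem hT hc hr.1 (conj2_mem hT hc hp.1 hv)))))
  have chy : Commute h y := by
    rw [hh, cjc yy, fix yy (Commute.refl y), cjc rr, cjc pp, cjc yy, cjc rr, cjc pp, hA]
    exact cyv.symm
  have chv : Commute h v := by
    rw [hh, cjc yy, fix yy cyv, cjc rr, ← bvr, cjc pp, cjc yy, e1, cjc rr, e3, ← bvp, cjc vv, e4, ← cjc qq, bvs,
      ← cjc ss, hA5]
    exact cyv
  have hne : h ≠ v := by
    intro e
    rw [hh, flip_iff yy, fix yy cyv, flip_iff rr, ← bvr, flip_iff pp, flip_iff yy, e1, flip_iff rr, e3, ← bvp,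
      flip_iff vv, e4, ← flip_iff qq, bvs, ← flip_iff ss, hA5] at e
    exact hyv.2.1 e
  have hhy : h ≠ y := by
    intro e
    rw [hh, flip_iff yy, fix yy (Commute.refl y), flip_iff rr, flip_iff pp, flip_iff yy, flip_iff rr, flip_iff pp,
      hA] at e
    exact hyv.2.1 e.symm
  exact htri y hyx.1 h ⟨hhD, hhy, chy.symm⟩ v ⟨hv, hyv.2.1.symm, cyv⟩ hne chv

include hT hc in
theorem com_conj {x v m : G} (hm : m ∈ Com D x v) {e : G} (he : e ∈ Com D x v) : m * e * m ∈ Com D x v :=
  ⟨oth_closed hT hc hm.1 he.1, oth_closed hT hc hm.2 he.2⟩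

include hT hc htri in
/-- The images of a proper closed set under a member outside it lie outside it. -/
theorem conj_not_mem {x v p m : G} (hx : x ∈ D) (hm : m ∈ Com D x v) (hp : p ∈ Oth D x) (hp' : p ∉ Oth D v) :
    p * m * p ∉ Com D x v := by
  intro h
  have hne : m ≠ p := fun e => hp' (e ▸ hm.2)
  have bmp := braid_of_not_commute hT hm.1.1 hp.1 (htri x hx m hm.1 p hp hne)
  have h1 := com_conj hT hc hm h
  rw [← bmp, dbl (mul_self (hT.1 m hm.1.1))] at h1
  exact hp' h1.2

include hT hc htri hsep in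
theorem three_mul_com_ge [Finite G] {x v y : G} (hx : x ∈ D) (hv : v ∈ D) (hne : x ≠ v) (hy : y ∈ Com D x v) :
    (Oth D x).ncard ≤ 3 * (Com D x v).ncard := by
  obtain ⟨p, hp, hp'⟩ := hsep x hx v hv hne
  have pp := mul_self (hT.1 p hp.1)
  have yy := mul_self (hT.1 y hy.1.1)
  have hp2 := oth_closed hT hc hy.1 hp
  have pp' := mul_self (hT.1 _ hp2.1)
  have hnv : ∀ {r : G}, r ∈ Oth D x → r ∉ Oth D v → r ≠ v → ¬ Commute v r := fun hr hr' hrv h =>
    hr' ⟨hr.1, hrv, h⟩
  have hxv : ∀ {r : G}, r ∈ Oth D x → r ≠ v := by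
    intro r hr e
    subst e
    exact htri y hy.1.1 x ⟨hx, hy.1.2.1.symm, hy.1.2.2.symm⟩ r ⟨hv, hy.2.2.1.symm, hy.2.2.2.symm⟩ hne hr.2.2
  set Q := Com D x v with hQ
  set A : Set G := (fun m => p * m * p) '' Q with hA
  set B : Set G := (fun m => y * p * y * m * (y * p * y)) '' Q with hB
  have hsub : Oth D x ⊆ Q ∪ A ∪ B := by
    intro r hr
    by_cases hrv : r ∈ Oth D v
    · exact Or.inl (Or.inl ⟨hr, hrv⟩)
    rcases plane_meets hT hc htri hx hv hy hp hr (hnv hp hp' (hxv hp)) (hnv hr hrv (hxv hr)) with h | h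
    · refine Or.inl (Or.inr ⟨p * r * p, ⟨oth_closed hT hc hp hr, conj2_mem hT hc hp.1 hr.1,
        hxv (oth_closed hT hc hp hr), h⟩, dbl pp r⟩)
    · exact Or.inr ⟨_, ⟨oth_closed hT hc hp2 hr, conj2_mem hT hc hp2.1 hr.1,
        hxv (oth_closed hT hc hp2 hr), h⟩, dbl pp' r⟩
  calc (Oth D x).ncard ≤ (Q ∪ A ∪ B).ncard := Set.ncard_le_ncard hsub (Set.toFinite _)
    _ ≤ (Q ∪ A).ncard + B.ncard := Set.ncard_union_le _ _
    _ ≤ Q.ncard + A.ncard + B.ncard := by have := Set.ncard_union_le Q A; omega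
    _ ≤ 3 * Q.ncard := by
      have h1 : A.ncard ≤ Q.ncard := Set.ncard_image_le (Set.toFinite _)
      have h2 : B.ncard ≤ Q.ncard := Set.ncard_image_le (Set.toFinite _)
      omega

include hT hc htri hsep in
theorem two_mul_com_le [Finite G] {x v : G} (hx : x ∈ D) (hv : v ∈ D) (hne : x ≠ v) :
    2 * (Com D x v).ncard ≤ (Oth D x).ncard := by
  obtain ⟨p, hp, hp'⟩ := hsep x hx v hv hne
  have pp := mul_self (hT.1 p hp.1)
  set Q := Com D x v with hQ
  set A : Set G := (fun m => p * m * p) '' Q with hA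
  have hinj : Function.Injective (fun m => p * m * p) := fun a b h => mul_left_cancel (mul_right_cancel h)
  have hdis : Disjoint Q A := Set.disjoint_right.2 (by
    rintro _ ⟨m, hm, rfl⟩; exact conj_not_mem hT hc htri hx hm hp hp')
  have hsub : Q ∪ A ⊆ Oth D x := Set.union_subset Set.inter_subset_left (by
    rintro _ ⟨m, hm, rfl⟩; exact oth_closed hT hc hp hm.1)
  have := Set.ncard_le_ncard hsub (Set.toFinite _)
  rw [Set.ncard_union_eq hdis (Set.toFinite _) (Set.toFinite _), hA, Set.ncard_image_of_injective _ hinj] at this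
  omega

include hT hc htri in
/-- Two noncommuting members with a common partner path have a common member. -/
theorem com_nonempty (hconn : ∀ a ∈ D, ∀ b ∈ D, Conn D a b) {x v : G} (hx : x ∈ D) (hv : v ∈ D)
    (hxv : ¬ Commute x v) : (Com D x v).Nonempty := by
  let S : G → Prop := fun w => ¬ Commute x w → (Com D x w).Nonempty
  have step : ∀ u w, u ∈ D → w ∈ D → Commute u w → S u → S w := by
    intro u w hu hw huw hS hxw
    have hxx := mul_self (hT.1 x hx)
    by_cases hux : Commute x u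
    · have hne : u ≠ x := fun e => hxw (e ▸ huw)
      have hnw : u ≠ w := fun e => hxw (e ▸ hux)
      exact ⟨u, ⟨hu, hne, hux⟩, ⟨hu, hnw, huw.symm⟩⟩
    obtain ⟨y, hy, hy'⟩ := hS hux
    by_cases hyw : Commute w y
    · exact ⟨y, hy, hy.1, fun e => hxw (e ▸ hy.2.2), hyw⟩
    have uu := mul_self (hT.1 u hu)
    have ww := mul_self (hT.1 w hw)
    have hwyD := conj2_mem hT hc hw hy.1
    obtain ⟨e, he⟩ : ∃ e, e = u * (x * (w * y * w) * x) * u := ⟨_, rfl⟩
    have heD : e ∈ D := he ▸ conj2_mem hT hc hu (conj2_mem hT hc hx hwyD)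
    have cex : Commute e x := by
      rw [he, cjc uu, ← braid_of_not_commute hT hx hu hux, cjc hxx, dbl hxx, cjc ww, fix ww huw.symm]
      exact hy'.2.2.symm
    have cew : Commute e w := by
      rw [he, cjc uu, fix uu huw, cjc hxx, braid_of_not_commute hT hx hw hxw, cjc ww, dbl ww]
      exact hy.2.2.symm
    exact ⟨e, ⟨heD, fun h => hxw (h ▸ cew), cex.symm⟩, ⟨heD, fun h => hxw (h ▸ cex).symm, cew.symm⟩⟩
  have key : ∀ a b, Conn D a b → (S a ↔ S b) := by
    intro a b hab
    induction hab with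
    | rel a b h => exact ⟨step a b h.1 h.2.1 h.2.2, step b a h.2.1 h.1 h.2.2.symm⟩
    | refl a => exact Iff.rfl
    | symm a b _ ih => exact ih.symm
    | trans a b c _ _ ih1 ih2 => exact ih1.trans ih2
  exact (key x v (hconn x hx v hv)).1 (fun h => absurd (Commute.refl x) h) hxv

include hT hc htri hsep in
theorem valency_le_three [Finite G] (hconn : ∀ a ∈ D, ∀ b ∈ D, Conn D a b)
    (hconj : ∀ a ∈ D, ∀ b ∈ D, ∃ g : G, g * a * g⁻¹ = b) {x : G} (hx : x ∈ D) :
    (Oth D x).ncard ≤ 3 := by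
  by_contra hk
  push Not at hk
  obtain ⟨y, hy⟩ : (Oth D x).Nonempty := (Set.ncard_pos (Set.toFinite _)).1 (by omega)
  have hky := ncard_oth_eq hc hconj hx hy.1
  have hx' : x ∈ Oth D y := ⟨hx, hy.2.1.symm, hy.2.2.symm⟩
  obtain ⟨u, hu, hux⟩ := Set.exists_ne_of_one_lt_ncard (show 1 < (Oth D y).ncard by omega) x
  have nxu : ¬ Commute x u := htri y hy.1 x hx' u hu hux.symm
  have hxu : x ≠ u := hux.symm
  have hQ := three_mul_com_ge hT hc htri hsep hx hu.1 hxu ⟨hy, hy.1, hu.2.1.symm, hu.2.2.symm⟩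
  obtain ⟨r, hr, hr'⟩ := hsep x hx u hu.1 hxu
  obtain ⟨m, n, hm, hn, hmn⟩ := (Set.one_lt_ncard (Set.toFinite _)).1 (show 1 < (Com D x u).ncard by omega)
    |> fun ⟨a, ha, b, hb, h⟩ => (⟨a, b, ha, hb, h⟩ : ∃ a b, a ∈ Com D x u ∧ b ∈ Com D x u ∧ a ≠ b)
  have hout : ∀ {m : G}, m ∈ Com D x u → m * r * m ∈ Oth D x ∧ m * r * m ∉ Oth D u := by
    intro m hm
    refine ⟨oth_closed hT hc hm.1 hr, fun h => hr' ?_⟩
    have := oth_closed hT hc hm.2 h
    rwa [dbl (mul_self (hT.1 m hm.1.1))] at this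
  have hnu : ∀ {r : G}, r ∈ Oth D x → r ∉ Oth D u → ¬ Commute u r := fun hr hr' h =>
    hr' ⟨hr.1, fun e => nxu (e ▸ hr.2.2), h⟩
  have hW : ∀ {r : G}, r ∈ Oth D x → r ∉ Oth D u → (Oth D u).ncard ≤ 3 * (Com D u r).ncard ∧
      Disjoint (Com D x u) (Com D u r) := by
    intro r hr hr'
    refine ⟨?_, Set.disjoint_left.2 fun w hw hw' => ?_⟩
    · obtain ⟨w, hw⟩ := com_nonempty hT hc htri hconn hu.1 hr.1 (hnu hr hr')
      exact three_mul_com_ge hT hc htri hsep hu.1 hr.1 (fun e => hnu hr hr' (e ▸ Commute.refl u)) hw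
    · exact htri x hx w hw.1 r hr hw'.2.2.1 hw'.2.2.2.symm
  have hdis : ∀ {m : G}, m ∈ Com D x u → Disjoint (Com D u r) (Com D u (m * r * m)) := by
    intro m hm
    refine Set.disjoint_left.2 fun w hw hw' => ?_
    have mm := mul_self (hT.1 m hm.1.1)
    have ww := mul_self (hT.1 w hw.1.1)
    have hwm : w ≠ m := fun e => Set.disjoint_left.1 (hW hr hr').2 hm (e ▸ hw)
    have bwm := braid_of_not_commute hT hw.1.1 hm.1.1 (htri u hu.1 w hw.1 m hm.2 hwm)
    have h1 : Commute r (m * w * m) := (cjc mm).1 hw'.2.2.2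
    rw [← bwm] at h1
    have h2 := (cjc ww).2 h1
    rw [fix ww hw.2.2.2.symm] at h2
    exact htri x hx r hr m hm.1 (fun e => hr' (e ▸ hm.2)) h2
  obtain ⟨ha, ha'⟩ := hout hm
  obtain ⟨hb, hb'⟩ := hout hn
  set a := m * r * m with haeq
  set b := n * r * n with hbeq
  have hab : a ≠ b := by
    intro e
    have nmr : ¬ Commute m r := htri x hx m hm.1 r hr fun e => hr' (e ▸ hm.2)
    have nnr : ¬ Commute n r := htri x hx n hn.1 r hr fun e => hr' (e ▸ hn.2)
    rw [haeq, hbeq, braid_of_not_commute hT hm.1.1 hr.1 nmr, braid_of_not_commute hT hn.1.1 hr.1 nnr] at e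
    exact hmn (mul_left_cancel (mul_right_cancel e))
  have hcover : Com D u b ⊆ Com D u a := by
    intro w hw
    have heq : Com D x u ∪ Com D u r ∪ Com D u a = Oth D u := by
      refine Set.eq_of_subset_of_ncard_le (Set.union_subset (Set.union_subset Set.inter_subset_right
        Set.inter_subset_left) Set.inter_subset_left) ?_ (Set.toFinite _)
      rw [Set.ncard_union_eq (Set.disjoint_union_left.2 ⟨(hW ha ha').2, hdis hm⟩) (Set.toFinite _) (Set.toFinite _),
        Set.ncard_union_eq (hW hr hr').2 (Set.toFinite _) (Set.toFinite _)]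
      have h1 := (hW hr hr').1
      have h2 := (hW ha ha').1
      have h3 := ncard_oth_eq hc hconj hx hu.1
      omega
    have hw0 := hw.1
    rw [← heq] at hw0
    rcases hw0 with (h | h) | h
    · exact absurd hw (Set.disjoint_left.1 (hW hb hb').2 h)
    · exact absurd hw (Set.disjoint_left.1 (hdis hn) h)
    · exact h
  set W := Com D u b with hWdef
  set f : G → G := fun w => x * w * x with hf
  have xx := mul_self (hT.1 x hx)
  have hxa : x ∈ Com D a b :=
    ⟨⟨hx, ha.2.1.symm, ha.2.2.symm⟩, ⟨hx, hb.2.1.symm, hb.2.2.symm⟩⟩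
  have hsub : {x} ∪ W ∪ f '' W ⊆ Com D a b := by
    refine Set.union_subset (Set.union_subset (Set.singleton_subset_iff.2 hxa) ?_) ?_
    · exact fun w hw => ⟨(hcover hw).2, hw.2⟩
    · rintro _ ⟨w, hw, rfl⟩
      exact com_conj hT hc hxa ⟨(hcover hw).2, hw.2⟩
  have hfu : ∀ w ∈ W, f w ∉ Oth D u := by
    intro w hw h
    have h1 := (cjc xx).1 h.2.2.symm
    rw [braid_of_not_commute hT hx hu.1 nxu] at h1
    have uu := mul_self (hT.1 u hu.1)
    have h2 := (cjc uu).2 h1
    rw [fix uu hw.1.2.2] at h2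
    exact Set.disjoint_left.1 (hW hb hb').2 ⟨⟨hw.1.1, fun e => nxu (e ▸ hw.1.2.2.symm), h2.symm⟩, hw.1⟩ hw
  have hxW : x ∉ W := fun h => nxu h.1.2.2.symm
  have hd1 : Disjoint ({x} : Set G) W := Set.disjoint_singleton_left.2 hxW
  have hd2 : Disjoint ({x} ∪ W) (f '' W) := by
    rw [Set.disjoint_right]
    rintro _ ⟨w, hw, rfl⟩ (h | h)
    · rw [Set.mem_singleton_iff, hf] at h
      have h' := (flip_iff xx).1 h
      rw [fix xx (Commute.refl x)] at h'
      exact hxW (h' ▸ hw)
    · exact hfu w hw h.1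
  have hcard := Set.ncard_le_ncard hsub (Set.toFinite _)
  rw [Set.ncard_union_eq hd2 (Set.toFinite _) (Set.toFinite _), Set.ncard_union_eq hd1 (Set.toFinite _) (Set.toFinite _),
    Set.ncard_singleton, Set.ncard_image_of_injective _ (fun a b h => mul_left_cancel (mul_right_cancel h))] at hcard
  have h1 := two_mul_com_le hT hc htri hsep ha.1 hb.1 hab
  have h2 := (hW hb hb').1
  have h3 := ncard_oth_eq hc hconj hx hu.1
  have h4 := ncard_oth_eq hc hconj hx ha.1
  rw [← hWdef] at h2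
  omega

end Cfsg.Agent.Lib.ThreeTransp.OddTwin
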